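import Cfsg.Agent.H11.McL.Std

/-!
The automorphisms of the graph on the 112 neighbours normalise the stabiliser of a point.
-/

set_option autoImplicit false

open Equiv Cfsg.Agent.H16 Cfsg.Agent.H36

namespace Cfsg.Agent.H11.McL

open Data

/-- Automorphisms of the graph on 112 points. -/
def autB : Subgroup (Perm (Fin 112)) where
  carrier := {g | ∀ x y : Fin 112, adjB (g x : Fin 112) (g y : Fin 112) = adjB x y}
  one_mem' := fun _ _ => rfl
  mul_mem' := fun {a b} ha hb x y => (ha (b x) (b y)).trans (hb x y)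
  inv_mem' := fun {a} ha x y => by
    have h := ha (a⁻¹ x) (a⁻¹ y)
    simpa using h.symm

theorem res_aut (g : A0) : res g ∈ autB := fun x y => by
  rw [← (bpt_facts x).2.2.2.2 y, ← (bpt_facts _).2.2.2.2, ← res_spec, ← res_spec]
  exact g.2.1 _ _

theorem rho_aut (g : X0) : rho g ∈ autB := res_aut _

theorem adjB_symm (x y : Fin 112) : adjB x y = adjB y x := by
  rw [← (bpt_facts x).2.2.2.2 y, ← (bpt_facts y).2.2.2.2 x]
  exact (pt_facts (bpt x)).2 (bpt y)

theorem adjB_irrefl (x : Fin 112) : adjB x x = false := by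
  rw [← (bpt_facts x).2.2.2.2 x]; exact (pt_facts (bpt x)).1

theorem inSet_iff {r y z : Fin 112} :
    inSet r y z = true ↔ z = r ∨ (adjB r z = true ∧ adjB y z = true) := by
  simp [inSet, Fin.ext_iff]

/-- Lying on the line `l0`. -/
def OnL0 (x : Fin 112) : Prop := (x : ℕ) ∈ l0

theorem any_l0 (x : Fin 112) : (l0.any fun y => Nat.beq y x) = true ↔ OnL0 x := by
  simp [List.any_eq_true, OnL0]

/-- Automorphisms fixing `l0` pointwise and every transversal line setwise. -/
def InE (τ : Perm (Fin 112)) : Prop :=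
  τ ∈ autB ∧ (∀ x, OnL0 x → τ x = x) ∧
    ∀ r y : Fin 112, ¬ OnL0 r → OnL0 y → adjB r y = true → inSet r y (τ r) = true

theorem l0_lt : ∀ x ∈ l0, x < 112 := by decide +kernel

theorem e_exists {k : ℕ} (hk : k < 3) : ∃ g : X0, (∀ i : Fin 112, (rho g i : ℕ) = apB (getN eL k) i) ∧
    (∀ x, OnL0 x → rho g x = x) ∧
    (∀ r y z : Fin 112, ¬ OnL0 r → OnL0 y → adjB r y = true → inSet r y z = true →
      inSet r y (rho g z) = true) := by
  have h := e_ok k hk
  simp only [eOk, forceNat_eq, Bool.and_eq_true, List.all_eq_true] at h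
  obtain ⟨⟨⟨⟨hf, -⟩, -⟩, hl⟩, hs⟩ := h
  obtain ⟨g, -, hg⟩ := elX hf
  refine ⟨g, hg, fun x hx => Fin.ext ((hg x).trans (Nat.eq_of_beq_eq_true (hl x hx))), fun r y z hr hy ha hz => ?_⟩
  have h1 := allFrom_spec hs r (Nat.zero_le _) (by simp)
  rw [Bool.or_eq_true, any_l0, List.all_eq_true] at h1
  have h2 := (h1.resolve_left hr) y hy
  rw [ha] at h2
  have h3 := allFrom_spec (show allFrom _ 112 0 = true by simpa using h2) z (Nat.zero_le _) (by simp)
  rw [hz] at h3
  rw [hg]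
  simpa using h3

/-- The three elements fixing `l0` and the transversal lines. -/
noncomputable def eG (k : Fin 3) : X0 := (e_exists k.2).choose

theorem eG_spec (k : Fin 3) : (∀ i : Fin 112, (rho (eG k) i : ℕ) = apB (getN eL k) i) ∧
    (∀ x, OnL0 x → rho (eG k) x = x) ∧
    (∀ r y z : Fin 112, ¬ OnL0 r → OnL0 y → adjB r y = true → inSet r y z = true →
      inSet r y (rho (eG k) z) = true) :=
  (e_exists k.2).choose_spec

theorem eG_inE (k : Fin 3) : InE (rho (eG k)) :=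
  ⟨rho_aut _, (eG_spec k).2.1, fun r y hr hy ha => (eG_spec k).2.2 r y r hr hy ha (inSet_iff.2 (Or.inl rfl))⟩

/-- The point `q1`. -/
noncomputable def q1F : Fin 112 :=
  ⟨q1, by
    have h := q1_ok
    simp only [q1Ok, Bool.and_eq_true, Nat.blt_eq] at h
    exact h.1.1.1.1⟩

theorem q1_facts : ¬ OnL0 q1F ∧ (∃ k : Fin 3, rho (eG k) q1F ≠ q1F) ∧
    ∃ y : Fin 112, OnL0 y ∧ adjB q1F y = true ∧ ∀ z : Fin 112, inSet q1F y z = true →
      ∃ k : Fin 3, rho (eG k) q1F = z := by
  have h := q1_ok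
  simp only [q1Ok, Bool.and_eq_true, Bool.not_eq_true', Nat.blt_eq] at h
  obtain ⟨⟨⟨⟨-, h1⟩, h2⟩, he⟩, h3⟩ := h
  refine ⟨fun hh => Bool.noConfusion (h1.symm.trans ((any_l0 q1F).2 hh : (l0.any fun x => Nat.beq x q1) = true)), ⟨⟨e1, he⟩, fun hh => ?_⟩, ?_⟩
  · have := (eG_spec ⟨e1, he⟩).1 q1F
    rw [hh] at this
    rw [show ((q1F : Fin 112) : ℕ) = q1 from rfl] at this
    rw [← this] at h2
    simp at h2
  · rw [List.any_eq_true] at h3
    obtain ⟨y, hy, hc⟩ := h3
    rw [Bool.and_eq_true] at hc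
    refine ⟨⟨y, l0_lt y hy⟩, hy, hc.1, fun z hz => ?_⟩
    have h4 := allFrom_spec hc.2 z (Nat.zero_le _) (by simp)
    rw [show inSet q1 y z = true from hz] at h4
    simp only [Bool.or_eq_true, Bool.not_eq_true', Bool.true_eq_false, false_or] at h4
    rcases h4 with (e | e) | e
    · exact ⟨0, Fin.ext (((eG_spec 0).1 q1F).trans (Nat.eq_of_beq_eq_true e))⟩
    · exact ⟨1, Fin.ext (((eG_spec 1).1 q1F).trans (Nat.eq_of_beq_eq_true e))⟩
    · exact ⟨2, Fin.ext (((eG_spec 2).1 q1F).trans (Nat.eq_of_beq_eq_true e))⟩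

theorem prop_sound {τ : Perm (Fin 112)} (hτ : InE τ) : ∀ (L : List ℕ) (F : ℕ), propOk L F = true →
    (∀ x : Fin 112, tb F x = true → τ x = x) → τ = 1 := by
  intro L
  induction L with
  | nil =>
    intro F h hfix
    refine Equiv.ext fun x => hfix x ?_
    have hF : F = Nat.sub (Nat.pow 2 112) 1 := Nat.eq_of_beq_eq_true h
    rw [tb_eq, hF, show Nat.sub (Nat.pow 2 112) 1 = 2 ^ 112 - 1 from rfl, Nat.testBit_two_pow_sub_one]
    exact decide_eq_true x.2
  | cons r L ih =>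
    intro F h hfix
    have h' : (Nat.blt r 112 && !(l0.any fun x => Nat.beq x r) &&
      (l0.any fun y => adjB r y && allFrom (fun z => !(inSet r y z) || Nat.beq z r ||
        !(Nat.beq (Nat.land (Nat.xor (aTab.get z) (aTab.get r)) F) 0)) 112 0) &&
      forceNat (Nat.lor (Nat.shiftLeft 1 r) F) (propOk L)) = true := h
    simp only [forceNat_eq, Bool.and_eq_true, Bool.not_eq_true', Nat.blt_eq, List.any_eq_true] at h'
    obtain ⟨⟨⟨hr, hl⟩, y, hy, ha, hall⟩, hrest⟩ := h'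
    refine ih _ hrest fun x hx => ?_
    rw [tb_eq, show Nat.lor (Nat.shiftLeft 1 r) F = (1 <<< r) ||| F from rfl, Nat.testBit_or,
      Bool.or_eq_true] at hx
    rcases hx with hx | hx
    · rw [Nat.one_shiftLeft, Nat.testBit_two_pow] at hx
      obtain rfl : x = ⟨r, hr⟩ := Fin.ext (of_decide_eq_true hx).symm
      set R : Fin 112 := ⟨r, hr⟩
      set Y : Fin 112 := ⟨y, l0_lt y hy⟩
      have hin := hτ.2.2 R Y (fun hh => by rw [(any_l0 R).2 hh] at hl; exact Bool.noConfusion hl) hy ha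
      have hsep := allFrom_spec hall (τ R) (Nat.zero_le _) (by simp)
      rw [show inSet r y (τ R : Fin 112) = true from hin] at hsep
      simp only [Bool.or_eq_true, Bool.not_eq_true', Bool.true_eq_false, false_or] at hsep
      rcases hsep with e | e
      · exact Fin.ext (Nat.eq_of_beq_eq_true e)
      · exfalso
        have hne : ((aTab.get (τ R : Fin 112)) ^^^ (aTab.get r)) &&& F ≠ 0 := by
          intro e0
          rw [show Nat.land (Nat.xor (aTab.get (τ R : Fin 112)) (aTab.get r)) F = 0 from e0] at e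
          exact Bool.noConfusion e
        obtain ⟨i, hi⟩ := Nat.exists_most_significant_bit hne
        rw [Nat.testBit_and, Bool.and_eq_true, Nat.testBit_xor, ← tb_eq, ← tb_eq, ← tb_eq] at hi
        have hi112 : i < 112 := by
          by_contra hcon
          have hlt : ∀ a : Fin 112, aTab.get a < 2 ^ 112 := by decide +kernel
          have hb : ∀ a : Fin 112, tb (aTab.get a) i = false := fun a => by
            rw [tb_eq]
            exact Nat.testBit_lt_two_pow (lt_of_lt_of_le (hlt a) (Nat.pow_le_pow_right (by norm_num) (not_lt.1 hcon)))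
          rw [hb (τ R), show tb (aTab.get r) i = false from hb R] at hi
          simp at hi
        have h1 := hτ.1 R ⟨i, hi112⟩
        rw [hfix ⟨i, hi112⟩ hi.1.2] at h1
        have h2 : tb (aTab.get (τ R : Fin 112)) i = tb (aTab.get r) i := h1
        rw [h2] at hi
        simp at hi
    · exact hfix x (by rwa [tb_eq])

theorem start_bits : allFrom (fun x => Bool.rec (!(Nat.beq x q1 || l0.any fun y => Nat.beq y x))
    (Nat.beq x q1 || l0.any fun y => Nat.beq y x) (tb propStart x)) 112 0 = true := by decide +kernel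

theorem inE_mem {τ : Perm (Fin 112)} (hτ : InE τ) : τ ∈ rho.range := by
  obtain ⟨hq, -, y, hy, ha, hall⟩ := q1_facts
  obtain ⟨k, hk⟩ := hall _ (hτ.2.2 q1F y hq hy ha)
  obtain ⟨k', hk'⟩ : ∃ k' : Fin 3, ∀ i, rho (eG k') (rho (eG k) i) = i := by
    have h := e_ok k k.2
    simp only [eOk, forceNat_eq, Bool.and_eq_true, Nat.blt_eq] at h
    refine ⟨⟨getN eInv k, h.1.1.1.2⟩, fun i => bpt_inj ?_⟩
    have hh := allFrom_spec h.1.1.2 (bpt i) (Nat.zero_le _) (by simp)
    have hk2 := (e_ok k k.2)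
    simp only [eOk, forceNat_eq, Bool.and_eq_true] at hk2
    have hf' : fix0 (getN eL (getN eInv k)) = true := by
      have := e_ok (getN eInv k) h.1.1.1.2
      simp only [eOk, forceNat_eq, Bool.and_eq_true] at this
      exact this.1.1.1.1
    obtain ⟨g, hg, hg'⟩ := elX hk2.1.1.1.1
    obtain ⟨g', hgg, hgg'⟩ := elX hf'
    have e1 : rho (eG k) = rho g := Equiv.ext fun j => Fin.ext (((eG_spec k).1 j).trans (hg' j).symm)
    have e2 : rho (eG ⟨getN eInv k, h.1.1.1.2⟩) = rho g' :=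
      Equiv.ext fun j => Fin.ext (((eG_spec ⟨getN eInv k, h.1.1.1.2⟩).1 j).trans (hgg' j).symm)
    rw [e1, e2, ← rho_spec, ← rho_spec]
    exact Fin.ext ((hgg _).trans ((congrArg _ (hg (bpt i))).trans (Nat.eq_of_beq_eq_true hh)))
  have h1 : InE (rho (eG k') * τ) := by
    refine ⟨autB.mul_mem (rho_aut _) hτ.1, fun x hx => ?_, fun r y hr hy ha => ?_⟩
    · rw [Perm.mul_apply, hτ.2.1 x hx, (eG_spec k').2.1 x hx]
    · exact (eG_spec k').2.2 r y _ hr hy ha (hτ.2.2 r y hr hy ha)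
  have h2 := prop_sound h1 propL propStart prop_ok fun x hx => ?_
  · exact ⟨(eG k')⁻¹, by rw [map_inv]; exact inv_eq_of_mul_eq_one_right h2⟩
  · rw [← brec_eq (allFrom_spec start_bits x (Nat.zero_le _) (by simp)), Bool.or_eq_true, any_l0] at hx
    rcases hx with hx | hx
    · obtain rfl : x = q1F := Fin.ext (Nat.eq_of_beq_eq_true hx)
      rw [Perm.mul_apply, ← hk, hk']
    · rw [Perm.mul_apply, hτ.2.1 x hx, (eG_spec k').2.1 x hx]

theorem l0_facts : ∃ a b : Fin 112, OnL0 a ∧ OnL0 b ∧ (a : ℕ) = 0 ∧ adjB a b = true ∧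
    ∀ z : Fin 112, OnL0 z ↔ z = a ∨ z = b ∨ (adjB a z = true ∧ adjB b z = true) := by
  have h := l0_ok
  simp only [l0Ok, Bool.and_eq_true] at h
  obtain ⟨⟨⟨h1, h2⟩, h3⟩, -⟩ := h
  have hm0 : getN l0 0 ∈ l0 := by decide +kernel
  have hm1 : getN l0 1 ∈ l0 := by decide +kernel
  refine ⟨⟨_, l0_lt _ hm0⟩, ⟨_, l0_lt _ hm1⟩, hm0, hm1, Nat.eq_of_beq_eq_true h2, h1, fun z => ?_⟩
  rw [← any_l0, brec_eq (allFrom_spec h3 z (Nat.zero_le _) (by simp))]
  simp [Fin.ext_iff, or_assoc]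

theorem near_el (j : Fin 112) (hj : adjB 0 j = true) :
    ∃ g : X0, rho g 0 = 0 ∧ (rho g ⟨n0, by decide⟩ : Fin 112) = j := by
  have h := transNF_ok j j.2
  simp only [transNFOk, forceNat_eq, Bool.or_eq_true] at h
  rw [show adjB 0 j = true from hj] at h
  have hne : Nat.beq (j : ℕ) 0 = false := Bool.eq_false_iff.2 fun e => by
    have := Nat.eq_of_beq_eq_true e
    have h0 := adjB_irrefl 0
    rw [show ((0 : Fin 112) : ℕ) = 0 from rfl] at h0
    rw [this] at hj
    rw [h0] at hj; exact Bool.noConfusion hj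
  rw [hne] at h
  simp only [Bool.false_eq_true, false_or, Bool.and_eq_true] at h
  obtain ⟨g, -, hg⟩ := elX h.1.1
  exact ⟨g, Fin.ext ((hg 0).trans (Nat.eq_of_beq_eq_true h.1.2)),
    Fin.ext ((hg _).trans (Nat.eq_of_beq_eq_true h.2))⟩

/-- The group is transitive on ordered adjacent pairs. -/
theorem arc_trans {a b u v : Fin 112} (hab : adjB a b = true) (huv : adjB u v = true) :
    ∃ g : X0, rho g a = u ∧ rho g b = v := by
  have main : ∀ u v : Fin 112, adjB u v = true →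
      ∃ g : X0, rho g 0 = u ∧ rho g ⟨n0, by decide⟩ = v := by
    intro u v huv
    obtain ⟨t, ht⟩ := transB_el u
    have hj : adjB 0 ((rho t)⁻¹ v : Fin 112) = true := by
      have := (autB.inv_mem (rho_aut t)) u v
      rw [Perm.inv_eq_iff_eq.2 ht.symm, huv] at this
      exact this
    obtain ⟨g, g0, g1⟩ := near_el _ hj
    exact ⟨t * g, by rw [map_mul, Perm.mul_apply, g0, ht], by
      rw [map_mul, Perm.mul_apply, g1]; exact (rho t).apply_symm_apply v⟩
  obtain ⟨g, g0, g1⟩ := main u v huv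
  obtain ⟨k, k0, k1⟩ := main a b hab
  exact ⟨g * k⁻¹, by rw [map_mul, map_inv, Perm.mul_apply, Perm.inv_eq_iff_eq.2 k0.symm, g0],
    by rw [map_mul, map_inv, Perm.mul_apply, Perm.inv_eq_iff_eq.2 k1.symm, g1]⟩

theorem conj_inE {σ τ : Perm (Fin 112)} (hσ : σ ∈ autB) (hl : ∀ x, OnL0 (σ x) ↔ OnL0 x) (hτ : InE τ) :
    InE (σ * τ * σ⁻¹) := by
  refine ⟨autB.mul_mem (autB.mul_mem hσ hτ.1) (autB.inv_mem hσ), fun x hx => ?_, fun r y hr hy ha => ?_⟩
  · have hx' : OnL0 (σ⁻¹ x) := (hl _).1 (by simpa using hx)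
    rw [Perm.mul_apply, Perm.mul_apply, hτ.2.1 _ hx']; simp
  · obtain ⟨r, rfl⟩ : ∃ r', σ r' = r := ⟨σ⁻¹ r, by simp⟩
    obtain ⟨y, rfl⟩ : ∃ y', σ y' = y := ⟨σ⁻¹ y, by simp⟩
    rw [hl] at hr hy
    rw [hσ] at ha
    have := inSet_iff.1 (hτ.2.2 r y hr hy ha)
    refine inSet_iff.2 ?_
    rw [Perm.mul_apply, Perm.mul_apply, show σ⁻¹ (σ r) = r by simp, hσ, hσ, σ.injective.eq_iff]
    exact this

/-- Automorphisms of the graph normalise the group. -/
theorem normalises (hsimple : IsSimpleGroup X0) {σ : Perm (Fin 112)} (hσ : σ ∈ autB) (x : X0) :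
    σ * rho x * σ⁻¹ ∈ rho.range := by
  obtain ⟨-, ⟨k, hk⟩, -⟩ := q1_facts
  obtain ⟨a, b, ha, hb, -, hab, hline⟩ := l0_facts
  let N : Subgroup X0 := rho.range.comap ((MulAut.conj σ).toMonoidHom.comp rho)
  have hN : Subgroup.normalClosure {eG k} ≤ N := by
    rw [Subgroup.normalClosure, Subgroup.closure_le]
    intro y hy
    obtain ⟨e, he, hey⟩ := Group.mem_conjugatesOfSet_iff.1 hy
    rw [Set.mem_singleton_iff] at he
    obtain ⟨c, rfl⟩ := isConj_iff.1 hey
    subst he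
    show σ * rho (c * eG k * c⁻¹) * σ⁻¹ ∈ rho.range
    set σ1 := σ * rho c with hσ1
    have hσ1a : σ1 ∈ autB := autB.mul_mem hσ (rho_aut c)
    obtain ⟨g, ga, gb⟩ := arc_trans hab (show adjB (σ1 a) (σ1 b) = true by rw [hσ1a]; exact hab)
    set σ2 := (rho g)⁻¹ * σ1 with hσ2
    have h2a : σ2 ∈ autB := autB.mul_mem (autB.inv_mem (rho_aut g)) hσ1a
    have fa : σ2 a = a := by rw [hσ2, Perm.mul_apply, ← ga]; simp
    have fb : σ2 b = b := by rw [hσ2, Perm.mul_apply, ← gb]; simp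
    have hl : ∀ z, OnL0 (σ2 z) ↔ OnL0 z := fun z => by
      have p1 := h2a a z
      have p2 := h2a b z
      rw [fa] at p1; rw [fb] at p2
      rw [hline, hline, p1, p2]
      nth_rewrite 1 [← fa]
      nth_rewrite 1 [← fb]
      rw [σ2.injective.eq_iff, σ2.injective.eq_iff]
    have := rho.range.mul_mem (rho.range.mul_mem ⟨g, rfl⟩ (inE_mem (conj_inE h2a hl (eG_inE k))))
      (rho.range.inv_mem ⟨g, rfl⟩)
    convert this using 1
    rw [hσ2, hσ1]; simp only [map_mul, map_inv, mul_inv_rev, inv_inv]; group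
  have hne : eG k ≠ 1 := fun e => hk (by rw [e, map_one]; rfl)
  have htop : Subgroup.normalClosure {eG k} = ⊤ :=
    (hsimple.eq_bot_or_eq_top_of_normal _ inferInstance).resolve_left fun h =>
      hne (Subgroup.mem_bot.1 (h ▸ Subgroup.subset_normalClosure rfl))
  exact hN (htop ▸ Subgroup.mem_top x)

end Cfsg.Agent.H11.McL
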