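import Cfsg.Agent.H11.McL.Core

/-! Kernel checks of the program and the graph. -/

set_option autoImplicit false
set_option maxRecDepth 100000

open Cfsg.Agent.H16 Cfsg.Agent.H36

namespace Cfsg.Agent.H11.McL

theorem slp0 : allFrom D.slpOk 180 0 = true := by decide +kernel

theorem slp1 : allFrom D.slpOk 180 180 = true := by decide +kernel

theorem slp2 : allFrom D.slpOk 180 360 = true := by decide +kernel

theorem slp3 : allFrom D.slpOk 153 540 = true := by decide +kernel

theorem slp_ok : ∀ k, k < D.ns → D.slpOk k = true :=
  allFrom_extend (allFrom_extend (allFrom_extend (allFrom_extend allFrom_nil slp0) slp1) slp2) slp3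

end Cfsg.Agent.H11.McL
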