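import Cfsg.Agent.H11.McL.Core

/-! Kernel checks of the graph. -/

set_option autoImplicit false
set_option maxRecDepth 100000

open Cfsg.Agent.H16 Cfsg.Agent.H36

namespace Cfsg.Agent.H11.McL

theorem aut0 : allFrom autOk 140 0 = true := by decide +kernel

theorem aut1 : allFrom autOk 135 140 = true := by decide +kernel

theorem aut_ok : ∀ x, x < 275 → autOk x = true :=
  allFrom_extend (allFrom_extend allFrom_nil aut0) aut1

theorem pt0 : allFrom ptOk 275 0 = true := by decide +kernel

theorem pt_ok : ∀ x, x < 275 → ptOk x = true := allFrom_extend allFrom_nil pt0

theorem b0 : allFrom bOk 112 0 = true := by decide +kernel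

theorem b_ok : ∀ i, i < 112 → bOk i = true := allFrom_extend allFrom_nil b0

theorem c0 : allFrom cOk 162 0 = true := by decide +kernel

theorem c_ok : ∀ c, c < 162 → cOk c = true := allFrom_extend allFrom_nil c0

theorem transB : allFrom transBOk 112 0 = true := by decide +kernel

theorem transB_ok : ∀ i, i < 112 → transBOk i = true := allFrom_extend allFrom_nil transB

theorem transC : allFrom transCOk 162 0 = true := by decide +kernel

theorem transC_ok : ∀ c, c < 162 → transCOk c = true := allFrom_extend allFrom_nil transC

theorem transNF : allFrom transNFOk 112 0 = true := by decide +kernel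

theorem transNF_ok : ∀ j, j < 112 → transNFOk j = true := allFrom_extend allFrom_nil transNF

theorem num_ok : numOk = true := by decide +kernel

theorem row0 : allFrom rowOk 162 0 = true := by decide +kernel

theorem row_ok : ∀ c, c < 162 → rowOk c = true := allFrom_extend allFrom_nil row0

end Cfsg.Agent.H11.McL
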