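import Cfsg.Agent.H11.McL.Core

/-! Kernel checks of lines, the 3-subgroup and automorphisms. -/

set_option autoImplicit false
set_option maxRecDepth 100000

open Cfsg.Agent.H16 Cfsg.Agent.H36

namespace Cfsg.Agent.H11.McL

theorem line0 : allFrom lineOk 140 0 = true := by decide +kernel

theorem line1 : allFrom lineOk 140 140 = true := by decide +kernel

theorem line_ok : ∀ k, k < 280 → lineOk k = true :=
  allFrom_extend (allFrom_extend allFrom_nil line0) line1

theorem pc : allFrom pcOk 6 0 = true := by decide +kernel

theorem pc_ok : ∀ k, k < 6 → pcOk k = true := allFrom_extend allFrom_nil pc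

theorem blocks_ok : blocksOk = true := by decide +kernel

theorem lorb : allFrom lorbOk 113 0 = true := by decide +kernel

theorem lorb_ok : ∀ n, n < 113 → lorbOk n = true := allFrom_extend allFrom_nil lorb

theorem sigs : allFrom sigOk 4 0 = true := by decide +kernel

theorem sig_ok : ∀ k, k < 4 → sigOk k = true := allFrom_extend allFrom_nil sigs

theorem l0_ok : l0Ok = true := by decide +kernel

theorem es : allFrom eOk 3 0 = true := by decide +kernel

theorem e_ok : ∀ k, k < 3 → eOk k = true := allFrom_extend allFrom_nil es

theorem q1_ok : q1Ok = true := by decide +kernel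

theorem prop_ok : propOk Data.propL propStart = true := by decide +kernel

end Cfsg.Agent.H11.McL
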