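import Cfsg.Agent.H11.McL.Core

/-! Kernel check of the case division. -/

set_option autoImplicit false
set_option maxRecDepth 100000

open Cfsg.Agent.H16 Cfsg.Agent.H36

namespace Cfsg.Agent.H11.McL

theorem tree_ok : treeOk Data.htree (Nat.lor 1 (Nat.shiftLeft 1 Data.q0)) 0 = true := by decide +kernel

end Cfsg.Agent.H11.McL
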