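import Cfsg.Agent.H11.McL.Data
import Cfsg.Agent.H15.Out.McLData

/-!
Functions and tests for the recognition of the McLaughlin group on 275 points.
-/

set_option autoImplicit false

open Cfsg.Agent.H16 Cfsg.Agent.H36 Cfsg.Agent.H36.AutEngine

namespace Cfsg.Agent.H11.McL

open Data

/-- The certified program. -/
noncomputable def D : Ctx := ⟨275, 9, Cfsg.Agent.H15.Out.McL.genTab, 693, slpTree, edgeArr⟩

/-- A bit. -/
noncomputable def tb (m i : ℕ) : Bool := Nat.beq (Nat.land (Nat.shiftRight m i) 1) 1

/-- An entry applied to a point. -/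
noncomputable def apE (k x : ℕ) : ℕ := D.ap (D.el k) x

/-- A point among the 112. -/
noncomputable def bp (i : ℕ) : ℕ := bTab.get 9 i

/-- A point among the 162. -/
noncomputable def cp (c : ℕ) : ℕ := cTab.get 9 c

/-- The kind of a point. -/
noncomputable def kind (x : ℕ) : ℕ := Nat.div (posTab.get 10 x) 256

/-- The index of a point in its part. -/
noncomputable def idx (x : ℕ) : ℕ := Nat.mod (posTab.get 10 x) 256

/-- An entry on the 112 points. -/
noncomputable def apB (k i : ℕ) : ℕ := idx (apE k (bp i))

/-- Adjacency on 275 points. -/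
noncomputable def adjN (x y : ℕ) : Bool := tb (nbTab.get x) y

/-- Adjacency on 112 points. -/
noncomputable def adjB (i j : ℕ) : Bool := tb (aTab.get i) j

/-- Incidence of the 162 with the 112. -/
noncomputable def inS (c i : ℕ) : Bool := tb (scTab.get c) i

/-- A graph automorphism of the 112 points. -/
noncomputable def sigN (k i : ℕ) : ℕ := sigTab.get 7 (Nat.add (Nat.mul k 112) i)

/-- Its inverse. -/
noncomputable def sigInvN (k i : ℕ) : ℕ := sigInvTab.get 7 (Nat.add (Nat.mul k 112) i)

/-- A word in the generators of the 3-subgroup applied to a point. -/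
noncomputable def evalS (w : List ℕ) (x : ℕ) : ℕ :=
  List.rec (motive := fun _ => ℕ) x (fun c _ ih => forceNat ih fun y => apE (getN seqL c) y) w

/-- The members of a line. -/
noncomputable def mem4 (k : ℕ) : List ℕ :=
  forceNat (lineTab.get 32 k) fun v => [bitField v 0 8, bitField v 8 8, bitField v 16 8, bitField v 24 8]

/-- `r` and `z` lie on a line through `r` and `y`. -/
noncomputable def inSet (r y z : ℕ) : Bool := Nat.beq z r || (adjB r z && adjB y z)

/-- The number of ones in a range of indices. -/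
noncomputable def cntB (p : ℕ → Bool) : ℕ := countFrom p 112 0

/-! ### The graph -/

/-- Both generators preserve adjacency. -/
noncomputable def autOk (x : ℕ) : Bool :=
  forceNat (getN D.gens 0) fun P => forceNat (getN D.gens 1) fun Q =>
  forceNat (D.ap P x) fun px => forceNat (D.ap Q x) fun qx =>
  forceNat (nbTab.get x) fun m => forceNat (nbTab.get px) fun mp => forceNat (nbTab.get qx) fun mq =>
  allFrom (fun y => Bool.rec (!(tb mp (D.ap P y)) && !(tb mq (D.ap Q y)))
    (tb mp (D.ap P y) && tb mq (D.ap Q y)) (tb m y)) 275 0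

/-- Adjacency is symmetric and irreflexive, and each point has its kind. -/
noncomputable def ptOk (x : ℕ) : Bool :=
  forceNat (nbTab.get x) fun m =>
  (allFrom (fun y => Bool.rec (!(adjN y x)) (adjN y x) (tb m y)) 275 0) && !(tb m x) &&
  (bif Nat.beq x 0 then Nat.beq (kind x) 0 else
   (bif Nat.beq (kind x) 1 then Nat.blt (idx x) 112 && Nat.beq (bp (idx x)) x && adjN 0 x else
      Nat.beq (kind x) 2 && Nat.blt (idx x) 162 && Nat.beq (cp (idx x)) x && !(adjN 0 x)))

/-- A point among the 112 is recovered from its index. -/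
noncomputable def bOk (i : ℕ) : Bool :=
  forceNat (bp i) fun x =>
  Nat.blt x 275 && Nat.beq (idx x) i && Nat.beq (kind x) 1 && adjN 0 x && adjN x 0 &&
  allFrom (fun j => Bool.rec (!(adjB i j)) (adjB i j) (adjN x (bp j))) 112 0

/-- A point among the 162 is recovered from its index. -/
noncomputable def cOk (c : ℕ) : Bool :=
  forceNat (cp c) fun x =>
  Nat.blt x 275 && Nat.beq (idx x) c && Nat.beq (kind x) 2 && Nat.blt (scTab.get c) (Nat.pow 2 112) &&
  allFrom (fun i => Bool.rec (!(inS c i)) (inS c i) (adjN x (bp i))) 112 0 &&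
  allFrom (fun c' => Nat.beq c c' || !(Nat.beq (scTab.get c) (scTab.get c'))) 162 0

/-! ### Transversals -/

/-- An entry fixes the point `0`. -/
noncomputable def fix0 (k : ℕ) : Bool := Nat.blt k D.ns && Nat.beq (apE k 0) 0

/-- The transversals. -/
noncomputable def transBOk (i : ℕ) : Bool :=
  forceNat (tbTab.get 10 i) fun k => fix0 k && Nat.beq (apB k 0) i

/-- The transversals. -/
noncomputable def transCOk (c : ℕ) : Bool :=
  forceNat (ctTab.get 10 c) fun k => fix0 k && Nat.beq (apE k (cp 0)) (cp c)

/-- The transversals in the stabiliser of the first of the 112. -/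
noncomputable def transNFOk (j : ℕ) : Bool :=
  Nat.beq j 0 || Bool.rec
    (forceNat (ftTab.get 10 j) fun k => fix0 k && Nat.beq (apB k 0) 0 && Nat.beq (apB k 1) j)
    (forceNat (ntTab.get 10 j) fun k => fix0 k && Nat.beq (apB k 0) 0 && Nat.beq (apB k n0) j)
    (adjB 0 j)

/-- Numbers of adjacent points and of common adjacent points. -/
noncomputable def numOk : Bool :=
  !(adjB 0 1) && adjB 0 n0 && !(adjB 0 q0) && Nat.blt q0 112 && !(Nat.beq q0 0) &&
  Nat.beq (cntB fun j => adjB 0 j) 30 && Nat.beq (cntB fun i => inS 0 i) 56 &&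
  Nat.beq (countFrom (fun c => adjN (cp 0) (cp c)) 162 0) 56 &&
  Nat.beq ((mem4 lFew).countP fun x => Nat.beq x 0 || adjB 0 x) 1

/-- The meeting numbers of the first of the 162. -/
noncomputable def rowOk (c : ℕ) : Bool :=
  Nat.beq c 0 || adjN (cp 0) (cp c) || Nat.blt 30 (cntB fun i => inS 0 i && inS c i)

/-! ### Lines -/

/-- A line. -/
noncomputable def lineOk (k : ℕ) : Bool :=
  allFrom (fun a => allFrom (fun b =>
    forceNat (getN (mem4 k) a) fun x => forceNat (getN (mem4 k) b) fun y =>
      Nat.blt x 112 && (Nat.beq a b || (!(Nat.beq x y) && adjB x y &&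
        Nat.beq (cntB fun j => adjB x j && adjB y j) 2))) 4 0) 4 0

/-! ### The 3-subgroup -/

/-- The defining relations of the polycyclic series. -/
noncomputable def pcOk (k : ℕ) : Bool :=
  forceNat (getN seqL k) fun g =>
  fix0 g && Nat.beq (apB g 0) 0 &&
  ((getW cubeW k).all fun a => Nat.blt a k) &&
  allFrom (fun x => Nat.beq (apE g (apE g (apE g x))) (evalS (getW cubeW k) x)) 275 0 &&
  allFrom (fun j => forceNat (getN seqL j) fun h => forceNat j fun j =>
    ((getW (conjW.getD k []) j).all fun a => Nat.blt a k) &&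
    allFrom (fun x => Nat.beq (apE g (apE h x)) (evalS (getW (conjW.getD k []) j) (apE g x))) 275 0) k 0

/-- The blocks. -/
noncomputable def blocksOk : Bool :=
  (blocks.all fun p => p.2.all fun q => Nat.blt p.1 112 && Nat.blt q.1 112 &&
    (q.2.all fun a => Nat.blt a 6) && Nat.beq (idx (evalS q.2 (bp p.1))) q.1) &&
  allFrom (fun i => blocks.any fun p => p.2.any fun q => Nat.beq q.1 i) 112 0

/-- Distinct images of the line `l0`. -/
noncomputable def lorbOk (n : ℕ) : Bool :=
  forceNat (lorbTab.get 10 n) fun k =>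
  fix0 k && allFrom (fun z => Bool.rec (!(l0.any fun x => Nat.beq (apB k x) z))
    (l0.any fun x => Nat.beq (apB k x) z) (tb (lorbMask.get n) z)) 112 0 &&
  (Nat.beq n 0 || Nat.blt (lorbMask.get (Nat.sub n 1)) (lorbMask.get n))

/-! ### Automorphisms -/

/-- The four automorphisms. -/
noncomputable def sigOk (k : ℕ) : Bool :=
  allFrom (fun i => Nat.blt (sigN k i) 112 && Nat.blt (sigInvN k i) 112 &&
    Nat.beq (sigN k (sigInvN k i)) i && Nat.beq (sigInvN k (sigN k i)) i &&
    allFrom (fun j => Bool.rec (!(adjB (sigN k i) (sigN k j))) (adjB (sigN k i) (sigN k j)) (adjB i j)) 112 0) 112 0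

/-- `l0` is the line through its first two points. -/
noncomputable def l0Ok : Bool :=
  adjB (getN l0 0) (getN l0 1) && Nat.beq (getN l0 0) 0 &&
  allFrom (fun z => Bool.rec (!(l0.any fun x => Nat.beq x z)) (l0.any fun x => Nat.beq x z)
    (Nat.beq z (getN l0 0) || Nat.beq z (getN l0 1) || (adjB (getN l0 0) z && adjB (getN l0 1) z))) 112 0 &&
  allFrom (fun r => (l0.any fun x => Nat.beq x r) || l0.any fun y => adjB r y) 112 0

/-- The elements fixing `l0` and its transversal lines. -/
noncomputable def eOk (k : ℕ) : Bool :=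
  forceNat (getN eL k) fun g => forceNat (getN eL (getN eInv k)) fun h =>
  fix0 g && Nat.blt (getN eInv k) 3 && allFrom (fun x => Nat.beq (apE h (apE g x)) x) 275 0 &&
  (l0.all fun x => Nat.beq (apB g x) x) &&
  allFrom (fun r => (l0.any fun x => Nat.beq x r) || l0.all fun y => !(adjB r y) ||
    allFrom (fun z => !(inSet r y z) || inSet r y (apB g z)) 112 0) 112 0

/-- The choices at `q1`. -/
noncomputable def q1Ok : Bool :=
  Nat.blt q1 112 && !(l0.any fun x => Nat.beq x q1) && !(Nat.beq (apB (getN eL e1) q1) q1) &&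
  Nat.blt e1 3 &&
  l0.any fun y => adjB q1 y && allFrom (fun z => !(inSet q1 y z) ||
    Nat.beq (apB (getN eL 0) q1) z || Nat.beq (apB (getN eL 1) q1) z || Nat.beq (apB (getN eL 2) q1) z) 112 0

/-- The mask of the points known to be fixed at the start. -/
noncomputable def propStart : ℕ :=
  Nat.lor (Nat.shiftLeft 1 q1) (l0.foldr (fun x m => Nat.lor (Nat.shiftLeft 1 x) m) 0)

/-- The points fixed one after the other. -/
noncomputable def propOk : List ℕ → ℕ → Bool :=
  List.rec (motive := fun _ => ℕ → Bool) (fun F => Nat.beq F (Nat.sub (Nat.pow 2 112) 1))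
    (fun r _ ih F =>
      Nat.blt r 112 && !(l0.any fun x => Nat.beq x r) &&
      (l0.any fun y => adjB r y && allFrom (fun z => !(inSet r y z) || Nat.beq z r ||
        !(Nat.beq (Nat.land (Nat.xor (aTab.get z) (aTab.get r)) F) 0)) 112 0) &&
      forceNat (Nat.lor (Nat.shiftLeft 1 r) F) ih)

/-! ### The case division -/

/-- Members of a list in a mask. -/
noncomputable def cntIn (m : ℕ) (l : List ℕ) : ℕ := l.countP fun x => tb m x

/-- Add to `t` the members of `l` outside `s`. -/
noncomputable def addOut (s : ℕ) (l : List ℕ) (t : ℕ) : ℕ :=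
  List.rec (motive := fun _ => ℕ) t
    (fun x _ ih => Bool.rec (Nat.lor (Nat.shiftLeft 1 x) ih) ih (tb s x)) l

/-- Forced steps, then a test. -/
noncomputable def runSteps (f : ℕ → ℕ → Bool) : List ℕ → ℕ → ℕ → Bool :=
  List.rec (motive := fun _ => ℕ → ℕ → Bool) f
    (fun k _ ih i o => Nat.blt k 280 &&
      (bif Nat.beq (cntIn i (mem4 k)) 2 then forceNat (addOut i (mem4 k) o) fun o' => ih i o'
       else bif Nat.beq (cntIn o (mem4 k)) 2 then forceNat (addOut o (mem4 k) i) fun i' => ih i' o
       else false))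

/-- The test of a case division. -/
noncomputable def treeOk (t : HTree) : ℕ → ℕ → Bool :=
  HTree.rec (motive := fun _ => ℕ → ℕ → Bool)
    (fun st v _ _ fl fr => runSteps (fun i o => Nat.blt v 112 &&
      forceNat (Nat.lor (Nat.shiftLeft 1 v) i) (fun i' => fl i' o) &&
      forceNat (Nat.lor (Nat.shiftLeft 1 v) o) (fun o' => fr i o')) st)
    (fun st k => runSteps (fun i o => Nat.blt k 280 &&
      (Nat.blt 2 (cntIn i (mem4 k)) || Nat.blt 2 (cntIn o (mem4 k)))) st)
    (fun st k j => runSteps (fun i o => Nat.blt k 4 && Nat.blt j 162 &&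
      allFrom (fun x => (tb i x || tb o x) &&
        Bool.rec (!(inS j (sigN k x))) (inS j (sigN k x)) (tb i x)) 112 0) st) t

end Cfsg.Agent.H11.McL
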