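import Cfsg.Agent.H11.McL.Model
import Cfsg.Agent.H11.McL.Checks4

/-!
A set of the 112 points meeting every line in two points and containing two given nonadjacent points
is one of 162 traces, up to four automorphisms.
-/

set_option autoImplicit false

open Cfsg.Agent.H16 Cfsg.Agent.H36

namespace Cfsg.Agent.H11.McL

open Data

/-- The state describes the set. -/
def Agree (S : ℕ → Bool) (i o : ℕ) : Prop :=
  ∀ x, x < 112 → (tb i x = true → S x = true) ∧ (tb o x = true → S x = false)

theorem tb_one (v x : ℕ) (o : ℕ) :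
    tb (Nat.lor (Nat.shiftLeft 1 v) o) x = (decide (v = x) || tb o x) := by
  rw [tb_eq, tb_eq, show Nat.lor (Nat.shiftLeft 1 v) o = (1 <<< v) ||| o from rfl, Nat.testBit_or,
    Nat.one_shiftLeft, Nat.testBit_two_pow]

theorem addOut_spec (s t : ℕ) : ∀ (l : List ℕ) (x : ℕ),
    tb (addOut s l t) x = true → tb t x = true ∨ (x ∈ l ∧ tb s x = false)
  | [], x, h => Or.inl h
  | a :: l, x, h => by
    have e : addOut s (a :: l) t =
        Bool.rec (motive := fun _ => ℕ) (Nat.lor (Nat.shiftLeft 1 a) (addOut s l t)) (addOut s l t) (tb s a) := rfl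
    rw [e] at h
    rcases ha : tb s a with _ | _ <;> rw [ha] at h
    · rw [tb_one, Bool.or_eq_true, decide_eq_true_eq] at h
      rcases h with rfl | h
      · exact Or.inr ⟨List.mem_cons_self, ha⟩
      · rcases addOut_spec s t l x h with h | ⟨h1, h2⟩
        · exact Or.inl h
        · exact Or.inr ⟨List.mem_cons_of_mem _ h1, h2⟩
    · rcases addOut_spec s t l x h with h | ⟨h1, h2⟩
      · exact Or.inl h
      · exact Or.inr ⟨List.mem_cons_of_mem _ h1, h2⟩

theorem countP_eq_imp {p q : ℕ → Bool} : ∀ (l : List ℕ), (∀ x ∈ l, p x = true → q x = true) →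
    l.countP p = l.countP q → ∀ x ∈ l, q x = true → p x = true
  | [], _, _, x, hx, _ => absurd hx List.not_mem_nil
  | a :: l, h, e, x, hx, hq => by
    have hle : l.countP p ≤ l.countP q :=
      List.countP_mono_left fun y hy => h y (List.mem_cons_of_mem _ hy)
    rw [List.countP_cons, List.countP_cons] at e
    have ha := h a List.mem_cons_self
    rcases List.mem_cons.1 hx with rfl | hx
    · rw [hq] at e
      by_contra hp
      rw [Bool.not_eq_true] at hp
      rw [hp] at e; simp at e; omega
    · refine countP_eq_imp l (fun y hy => h y (List.mem_cons_of_mem _ hy)) ?_ x hx hq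
      cases hpa : p a <;> cases hqa : q a <;> simp [hpa, hqa] at e ha ⊢ <;> omega

section

variable {S : ℕ → Bool} (hS : ∀ k, k < 280 → (mem4 k).countP S = 2)

include hS

theorem line_count (k : ℕ) (hk : k < 280) : (mem4 k).countP (fun x => !(S x)) = 2 := by
  have h := List.length_eq_countP_add_countP (l := mem4 k) S
  rw [hS k hk, show (mem4 k).length = 4 by simp [mem4]] at h
  have : (mem4 k).countP (fun x => !(S x)) = (mem4 k).countP (fun a => decide ¬(S a = true)) :=
    List.countP_congr (by simp)
  omega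


theorem cnt_le (hl : ∀ k, k < 280 → ∀ x ∈ mem4 k, x < 112) {i o k : ℕ} (hk : k < 280) (h : Agree S i o) :
    cntIn i (mem4 k) ≤ 2 ∧ cntIn o (mem4 k) ≤ 2 := by
  constructor
  · rw [← hS k hk]
    exact List.countP_mono_left fun x hx => (h x (hl k hk x hx)).1
  · rw [← line_count hS k hk]
    exact List.countP_mono_left fun x hx hh => by rw [(h x (hl k hk x hx)).2 hh]; rfl

theorem runSteps_spec (hl : ∀ k, k < 280 → ∀ x ∈ mem4 k, x < 112) (f : ℕ → ℕ → Bool) :
    ∀ (st : List ℕ) (i o : ℕ), runSteps f st i o = true → Agree S i o →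
      ∃ i' o', Agree S i' o' ∧ f i' o' = true
  | [], i, o, h, hA => ⟨i, o, hA, h⟩
  | k :: st, i, o, h, hA => by
    have h' : (Nat.blt k 280 &&
      (bif Nat.beq (cntIn i (mem4 k)) 2 then forceNat (addOut i (mem4 k) o) fun o' => runSteps f st i o'
       else bif Nat.beq (cntIn o (mem4 k)) 2 then forceNat (addOut o (mem4 k) i) fun i' => runSteps f st i' o
       else false)) = true := h
    simp only [forceNat_eq, Bool.and_eq_true, Nat.blt_eq] at h'
    obtain ⟨hk, h'⟩ := h'
    cases h1 : Nat.beq (cntIn i (mem4 k)) 2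
    · rw [h1, cond_false] at h'
      cases h2 : Nat.beq (cntIn o (mem4 k)) 2
      · rw [h2, cond_false] at h'; exact Bool.noConfusion h'
      · rw [h2, cond_true] at h'
        refine runSteps_spec hl f st _ _ h' fun x hx => ⟨fun hh => ?_, (hA x hx).2⟩
        rcases addOut_spec o i _ x hh with hh | ⟨hm, hn⟩
        · exact (hA x hx).1 hh
        · have := countP_eq_imp (p := fun x => tb o x) (q := fun x => !(S x)) (mem4 k)
            (fun y hy hh => by rw [(hA y (hl k hk y hy)).2 hh]; rfl)
            ((Nat.eq_of_beq_eq_true h2).trans (line_count hS k hk).symm) x hm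
          cases hSx : S x
          · rw [hSx] at this; rw [this rfl] at hn; exact Bool.noConfusion hn
          · rfl
    · rw [h1, cond_true] at h'
      refine runSteps_spec hl f st _ _ h' fun x hx => ⟨(hA x hx).1, fun hh => ?_⟩
      rcases addOut_spec i o _ x hh with hh | ⟨hm, hn⟩
      · exact (hA x hx).2 hh
      · have := countP_eq_imp (p := fun x => tb i x) (q := S) (mem4 k)
          (fun y hy => (hA y (hl k hk y hy)).1) ((Nat.eq_of_beq_eq_true h1).trans (hS k hk).symm) x hm
        cases hSx : S x
        · rfl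
        · rw [this hSx] at hn; exact Bool.noConfusion hn

theorem treeOk_spec (hl : ∀ k, k < 280 → ∀ x ∈ mem4 k, x < 112) :
    ∀ (t : HTree) (i o : ℕ), treeOk t i o = true → Agree S i o →
      ∃ k j, k < 4 ∧ j < 162 ∧ ∀ x, x < 112 → S x = inS j (sigN k x) := by
  intro t
  induction t with
  | split st v l r ihl ihr =>
    intro i o h hA
    obtain ⟨i', o', hA', h'⟩ : ∃ i' o', Agree S i' o' ∧ (Nat.blt v 112 &&
        forceNat (Nat.lor (Nat.shiftLeft 1 v) i') (fun i'' => treeOk l i'' o') &&
        forceNat (Nat.lor (Nat.shiftLeft 1 v) o') (fun o'' => treeOk r i' o'')) = true :=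
      runSteps_spec hS hl _ st i o h hA
    simp only [forceNat_eq, Bool.and_eq_true, Nat.blt_eq] at h'
    cases hv : S v
    · refine ihr i' (Nat.lor (Nat.shiftLeft 1 v) o') h'.2 fun x hx => ⟨(hA' x hx).1, fun hh => ?_⟩
      rw [tb_one, Bool.or_eq_true, decide_eq_true_eq] at hh
      rcases hh with rfl | hh
      · exact hv
      · exact (hA' x hx).2 hh
    · refine ihl (Nat.lor (Nat.shiftLeft 1 v) i') o' h'.1.2 fun x hx => ⟨fun hh => ?_, (hA' x hx).2⟩
      rw [tb_one, Bool.or_eq_true, decide_eq_true_eq] at hh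
      rcases hh with rfl | hh
      · exact hv
      · exact (hA' x hx).1 hh
  | conflict st k =>
    intro i o h hA
    obtain ⟨i', o', hA', h'⟩ := runSteps_spec hS hl _ st i o h hA
    simp only [Bool.and_eq_true, Bool.or_eq_true, Nat.blt_eq] at h'
    obtain ⟨h1, h2⟩ := cnt_le hS hl h'.1 hA'
    omega
  | leaf st k j =>
    intro i o h hA
    obtain ⟨i', o', hA', h'⟩ := runSteps_spec hS hl _ st i o h hA
    simp only [Bool.and_eq_true, Nat.blt_eq] at h'
    refine ⟨k, j, h'.1.1, h'.1.2, fun x hx => ?_⟩
    have := allFrom_spec h'.2 x (Nat.zero_le _) (by simpa using hx)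
    rw [Bool.and_eq_true, Bool.or_eq_true] at this
    rw [brec_eq this.2]
    rcases this.1 with e | e
    · rw [e, (hA' x hx).1 e]
    · have hs := (hA' x hx).2 e
      cases hi : tb i' x
      · exact hs
      · rw [(hA' x hx).1 hi] at hs; exact Bool.noConfusion hs

end

end Cfsg.Agent.H11.McL
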