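import Cfsg.Agent.H11.McL.Checks1
import Cfsg.Agent.H11.McL.Checks2
import Cfsg.Agent.H15.Out.McLModel
import Cfsg.Agent.H14.U43.Model

/-!
The McLaughlin group on 275 points: the graph, the stabiliser of a point and its action on the 112
neighbours of that point.
-/

set_option autoImplicit false

open Equiv Cfsg.Agent.H16 Cfsg.Agent.H36 Cfsg.Agent.H36.AutEngine

namespace Cfsg.Agent.H11.McL

open Data

/-- The generators. -/
noncomputable def gen' : Fin D.gens.length → Perm (Fin 275) := H15.Out.McL.gen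

theorem gen_rep (c : Fin D.gens.length) : D.Rep (gen' c) (getN D.gens c) :=
  (H15.Out.McL.gen_spec c).2

/-- The group on 275 points. -/
noncomputable def M : Subgroup (Perm (Fin 275)) := Subgroup.closure (Set.range gen')

theorem M_eq : M = H15.Out.McL.fam.rho.range := H15.Out.McL.setting_eq.2

theorem card_M : Nat.card M = 898128000 := H15.Out.McL.card_grp

theorem M_iso : Nonempty (↥Spor.McL ≃* ↥M) :=
  H15.Out.McL.nonempty_equiv_G0.map fun e => e.trans H15.Out.McL.equivG0

theorem el_exists {k : ℕ} (hk : k < D.ns) : ∃ g ∈ M, ∀ x : Fin 275, ((g x : Fin 275) : ℕ) = apE k x :=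
  Ctx.el_mem (D := D) gen' gen_rep slp_ok k hk

theorem tb_eq (m i : ℕ) : tb m i = m.testBit i := by
  unfold tb
  rw [Nat.testBit_eq_decide_div_mod_eq]
  change Nat.beq ((m >>> i) &&& 1) 1 = _
  rw [Nat.and_one_is_mod, Nat.shiftRight_eq_div_pow]
  rcases Nat.mod_two_eq_zero_or_one (m / 2 ^ i) with h | h <;> rw [h] <;> rfl

theorem brec_eq {b c : Bool} (h : (Bool.rec (!b) b c : Bool) = true) : b = c := by
  cases b <;> cases c <;> simp_all

/-- Automorphisms of the graph on 275 points. -/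
def autGrp : Subgroup (Perm (Fin 275)) where
  carrier := {g | ∀ x y : Fin 275, adjN (g x : Fin 275) (g y : Fin 275) = adjN x y}
  one_mem' := fun _ _ => rfl
  mul_mem' := fun {a b} ha hb x y => (ha (b x) (b y)).trans (hb x y)
  inv_mem' := fun {a} ha x y => by
    have h := ha (a⁻¹ x) (a⁻¹ y)
    simpa using h.symm

theorem gens_aut {k : ℕ} (hk : k = 0 ∨ k = 1) (g : Perm (Fin 275))
    (hg : D.Rep g (getN D.gens k)) : g ∈ autGrp := fun x y => by
  have h := aut_ok x x.2
  simp only [autOk, forceNat_eq] at h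
  have h' := allFrom_spec h y (Nat.zero_le _) (by simp)
  simp only [adjN]
  have hx : ((g x : Fin 275) : ℕ) = D.ap (getN D.gens k) x := hg x
  have hy : ((g y : Fin 275) : ℕ) = D.ap (getN D.gens k) y := hg y
  rw [hx, hy]
  rcases hk with rfl | rfl <;> revert h' <;> cases tb (nbTab.get x) y <;>
    simp [Bool.and_eq_true] <;> tauto

theorem M_le_aut : M ≤ autGrp := by
  rw [M, Subgroup.closure_le]
  rintro _ ⟨⟨c, hc⟩, rfl⟩
  refine gens_aut ?_ _ (gen_rep ⟨c, hc⟩)
  show c = 0 ∨ c = 1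
  have : D.gens.length = 2 := rfl
  omega

/-- A point among the 112. -/
noncomputable def bpt (i : Fin 112) : Fin 275 :=
  ⟨bp i, by
    have h := b_ok i i.2
    simp only [bOk, forceNat_eq, Bool.and_eq_true, Nat.blt_eq] at h
    exact h.1.1.1.1.1⟩

/-- A point among the 162. -/
noncomputable def cpt (c : Fin 162) : Fin 275 :=
  ⟨cp c, by
    have h := c_ok c c.2
    simp only [cOk, forceNat_eq, Bool.and_eq_true, Nat.blt_eq] at h
    exact h.1.1.1.1.1⟩

theorem bpt_facts (i : Fin 112) : idx (bpt i) = i ∧ kind (bpt i) = 1 ∧ adjN 0 (bpt i) = true ∧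
    adjN (bpt i) 0 = true ∧ ∀ j : Fin 112, adjN (bpt i) (bpt j) = adjB i j := by
  have h := b_ok i i.2
  simp only [bOk, forceNat_eq, Bool.and_eq_true, Nat.blt_eq] at h
  obtain ⟨⟨⟨⟨⟨-, h1⟩, h2⟩, h3⟩, h4⟩, h5⟩ := h
  exact ⟨Nat.eq_of_beq_eq_true h1, Nat.eq_of_beq_eq_true h2, h3, h4, fun j =>
    (brec_eq (allFrom_spec h5 j (Nat.zero_le _) (by simp))).symm⟩

theorem bpt_inj : Function.Injective bpt := fun i j e => Fin.ext (by
  have h := (bpt_facts i).1
  rw [e, (bpt_facts j).1] at h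
  exact h.symm)

theorem cpt_facts (c : Fin 162) : idx (cpt c) = c ∧ kind (cpt c) = 2 ∧
    (∀ i : Fin 112, adjN (cpt c) (bpt i) = inS c i) ∧ Data.scTab.get c < Nat.pow 2 112 ∧
    ∀ c' : Fin 162, Data.scTab.get c = Data.scTab.get c' → c = c' := by
  have h := c_ok c c.2
  simp only [cOk, forceNat_eq, Bool.and_eq_true, Nat.blt_eq] at h
  obtain ⟨⟨⟨⟨⟨-, h1⟩, h2⟩, h3⟩, h4⟩, h5⟩ := h
  refine ⟨Nat.eq_of_beq_eq_true h1, Nat.eq_of_beq_eq_true h2,
    fun i => (brec_eq (allFrom_spec h4 i (Nat.zero_le _) (by simp))).symm, h3, fun c' e => ?_⟩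
  have := allFrom_spec h5 c' (Nat.zero_le _) (by simp)
  rw [e] at this
  simp only [Nat.beq_eq, Bool.or_eq_true, Bool.not_eq_true'] at this
  rcases this with h | h
  · exact Fin.ext h
  · exact absurd h (by simp)

theorem inS_ext {c c' : Fin 162} (h : ∀ i : Fin 112, inS c i = inS c' i) : c = c' := by
  refine (cpt_facts c).2.2.2.2 c' (Nat.eq_of_testBit_eq fun i => ?_)
  by_cases hi : i < 112
  · simpa [inS, tb_eq] using h ⟨i, hi⟩
  · rw [Nat.testBit_lt_two_pow (lt_of_lt_of_le (cpt_facts c).2.2.2.1 (Nat.pow_le_pow_right (by norm_num) (not_lt.1 hi))),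
      Nat.testBit_lt_two_pow (lt_of_lt_of_le (cpt_facts c').2.2.2.1 (Nat.pow_le_pow_right (by norm_num) (not_lt.1 hi)))]

theorem cpt_inj : Function.Injective cpt := fun i j e => Fin.ext (by
  have h := (cpt_facts i).1
  rw [e, (cpt_facts j).1] at h
  exact h.symm)

theorem pt_facts (x : Fin 275) : adjN x x = false ∧ (∀ y : Fin 275, adjN x y = adjN y x) := by
  have h := pt_ok x x.2
  simp only [ptOk, forceNat_eq, Bool.and_eq_true, Bool.not_eq_true'] at h
  exact ⟨h.1.2, fun y => (brec_eq (allFrom_spec h.1.1 y (Nat.zero_le _) (by simp))).symm⟩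

theorem pt_cases (x : Fin 275) : x = 0 ∨ (∃ i, x = bpt i) ∨ ∃ c, x = cpt c ∧ adjN 0 x = false := by
  by_cases hx : x = 0
  · exact Or.inl hx
  have h := pt_ok x x.2
  simp only [ptOk, forceNat_eq, Bool.and_eq_true] at h
  have h2 := h.2
  have hx' : Nat.beq (x : ℕ) 0 = false :=
    Bool.eq_false_iff.2 fun h => hx (Fin.ext (Nat.eq_of_beq_eq_true h))
  rw [hx', cond_false] at h2
  right
  cases hk : Nat.beq (kind x) 1
  · rw [hk, cond_false] at h2
    simp only [Bool.and_eq_true, Nat.blt_eq, Bool.not_eq_true'] at h2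
    exact Or.inr ⟨⟨idx x, h2.1.1.2⟩, Fin.ext (Nat.eq_of_beq_eq_true h2.1.2).symm, h2.2⟩
  · rw [hk, cond_true] at h2
    simp only [Bool.and_eq_true, Nat.blt_eq] at h2
    exact Or.inl ⟨⟨idx x, h2.1.1⟩, Fin.ext (Nat.eq_of_beq_eq_true h2.1.2).symm⟩

theorem adj_zero_iff (x : Fin 275) : adjN 0 x = true ↔ ∃ i, x = bpt i := by
  refine ⟨fun h => ?_, fun ⟨i, e⟩ => e ▸ (bpt_facts i).2.2.1⟩
  rcases pt_cases x with rfl | e | ⟨c, -, e⟩
  · have := (pt_facts 0).1
    rw [show ((0 : Fin 275) : ℕ) = 0 from rfl] at h this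
    rw [h] at this; exact Bool.noConfusion this
  · exact e
  · rw [h] at e; exact Bool.noConfusion e

/-- Automorphisms fixing the point `0`. -/
noncomputable def A0 : Subgroup (Perm (Fin 275)) :=
  autGrp ⊓ MulAction.stabilizer (Perm (Fin 275)) (0 : Fin 275)

theorem adj0_map (g : A0) (x : Fin 275) : adjN 0 ((g : Perm (Fin 275)) x : Fin 275) = adjN 0 x := by
  have h := g.2.1 0 x
  rwa [show (g : Perm (Fin 275)) 0 = 0 from g.2.2] at h

theorem res_exists (g : A0) (i : Fin 112) : ∃ j, (g : Perm (Fin 275)) (bpt i) = bpt j :=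
  (adj_zero_iff _).1 (by rw [adj0_map, (bpt_facts i).2.2.1])

/-- The action on the 112 neighbours, as a function. -/
noncomputable def resFun (g : A0) (i : Fin 112) : Fin 112 := (res_exists g i).choose

theorem resFun_spec (g : A0) (i : Fin 112) : (g : Perm (Fin 275)) (bpt i) = bpt (resFun g i) :=
  (res_exists g i).choose_spec

theorem resFun_mul (g h : A0) (i : Fin 112) : resFun (g * h) i = resFun g (resFun h i) :=
  bpt_inj (by rw [← resFun_spec, ← resFun_spec, ← resFun_spec]; rfl)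

theorem resFun_one (i : Fin 112) : resFun 1 i = i :=
  bpt_inj (by rw [← resFun_spec]; rfl)

/-- The action on the 112 neighbours. -/
noncomputable def res : A0 →* Perm (Fin 112) where
  toFun g :=
    { toFun := resFun g
      invFun := resFun g⁻¹
      left_inv := fun i => by rw [← resFun_mul, inv_mul_cancel, resFun_one]
      right_inv := fun i => by rw [← resFun_mul, mul_inv_cancel, resFun_one] }
  map_one' := Equiv.ext resFun_one
  map_mul' g h := Equiv.ext (resFun_mul g h)

theorem res_spec (g : A0) (i : Fin 112) : (g : Perm (Fin 275)) (bpt i) = bpt (res g i) :=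
  resFun_spec g i

/-- An automorphism fixing `0` maps a point among the 162 to one of them. -/
theorem cmap_exists (g : A0) (c : Fin 162) : ∃ c', (g : Perm (Fin 275)) (cpt c) = cpt c' := by
  rcases pt_cases ((g : Perm (Fin 275)) (cpt c)) with e | ⟨i, e⟩ | ⟨c', e, -⟩
  · have : cpt c = 0 := (g : Perm (Fin 275)).injective (e.trans g.2.2.symm)
    have h := (cpt_facts c).2.1
    rw [this] at h
    exact absurd h (by decide +kernel)
  · have h := adj0_map g (cpt c)
    rw [e, (bpt_facts i).2.2.1] at h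
    rcases (adj_zero_iff (cpt c)).1 h.symm with ⟨j, ej⟩
    have h2 := (cpt_facts c).2.1
    rw [ej, (bpt_facts j).2.1] at h2
    exact absurd h2 (by norm_num)
  · exact ⟨c', e⟩

theorem cmap_inS (g : A0) {c c' : Fin 162} (h : (g : Perm (Fin 275)) (cpt c) = cpt c') (i : Fin 112) :
    inS c' (res g i) = inS c i := by
  rw [← (cpt_facts c').2.2.1, ← (cpt_facts c).2.2.1, ← h, ← res_spec]
  exact g.2.1 _ _

/-- An automorphism fixing `0` is determined by its action on the 112 neighbours. -/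
theorem res_inj : Function.Injective res := by
  rw [← MonoidHom.ker_eq_bot_iff, Subgroup.eq_bot_iff_forall]
  intro g hg
  refine Subtype.ext (Equiv.ext fun x => ?_)
  rw [OneMemClass.coe_one, Perm.one_apply]
  have hr : ∀ i, res g i = i := fun i => by rw [MonoidHom.mem_ker.1 hg]; rfl
  rcases pt_cases x with rfl | ⟨i, rfl⟩ | ⟨c, rfl, -⟩
  · exact g.2.2
  · rw [res_spec, hr]
  · obtain ⟨c', e⟩ := cmap_exists g c
    have hc : c' = c := inS_ext fun i => by
      have := cmap_inS g e i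
      rwa [hr] at this
    rw [e, hc]

/-- The stabiliser of the point `0`. -/
noncomputable def X0 : Subgroup (Perm (Fin 275)) := M ⊓ MulAction.stabilizer (Perm (Fin 275)) (0 : Fin 275)

theorem X0_le : X0 ≤ A0 := inf_le_inf_right _ M_le_aut

/-- The action of the stabiliser on the 112 neighbours. -/
noncomputable def rho : X0 →* Perm (Fin 112) := res.comp (Subgroup.inclusion X0_le)

theorem rho_spec (g : X0) (i : Fin 112) : (g : Perm (Fin 275)) (bpt i) = bpt (rho g i) :=
  res_spec ⟨g, X0_le g.2⟩ i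

theorem rho_inj : Function.Injective rho := res_inj.comp (Subgroup.inclusion_injective X0_le)

/-- An entry fixing `0` gives an element of the stabiliser. -/
theorem elX {k : ℕ} (h : fix0 k = true) : ∃ g : X0,
    (∀ x : Fin 275, (((g : Perm (Fin 275)) x : Fin 275) : ℕ) = apE k x) ∧
      ∀ i : Fin 112, (rho g i : ℕ) = apB k i := by
  simp only [fix0, Bool.and_eq_true, Nat.blt_eq] at h
  obtain ⟨g, hg, hr⟩ := el_exists h.1
  obtain ⟨g', rfl⟩ : ∃ g' : X0, (g' : Perm (Fin 275)) = g :=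
    ⟨⟨g, hg, Fin.ext ((hr 0).trans (Nat.eq_of_beq_eq_true h.2))⟩, rfl⟩
  refine ⟨g', hr, fun i => ?_⟩
  have h1 := hr (bpt i)
  rw [rho_spec] at h1
  exact ((bpt_facts _).1.symm.trans (congrArg idx h1))

theorem transB_el (i : Fin 112) : ∃ g : X0, rho g 0 = i := by
  have h := transB_ok i i.2
  simp only [transBOk, forceNat_eq, Bool.and_eq_true] at h
  obtain ⟨g, -, hg⟩ := elX h.1
  exact ⟨g, Fin.ext ((hg 0).trans (Nat.eq_of_beq_eq_true h.2))⟩

theorem transC_el (c : Fin 162) : ∃ g : X0, (g : Perm (Fin 275)) (cpt 0) = cpt c := by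
  have h := transC_ok c c.2
  simp only [transCOk, forceNat_eq, Bool.and_eq_true] at h
  obtain ⟨g, hg, -⟩ := elX h.1
  exact ⟨g, Fin.ext ((hg _).trans (Nat.eq_of_beq_eq_true h.2))⟩

section

variable (K : Type) [Field K] [Fintype K] (hK : Fintype.card K = 9)

/-- The permutation representation of the model. -/
noncomputable def modelHom : ↥H15.Out.McL.G0 →* Perm (Fin 275) := H15.Out.McL.fam.rho

/-- The elements of the model fixing the vector of the point `0`. -/
noncomputable def S0 : Subgroup ↥H15.Out.McL.G0 :=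
  (MulAction.stabilizer ↥Co0 (H15.Out.McL.ptVec (0 : Fin 275))).subgroupOf H15.Out.McL.G0

theorem X0_eq : X0 = S0.map modelHom := by
  ext g
  constructor
  · rintro ⟨hg, h⟩
    obtain ⟨k, rfl⟩ : g ∈ modelHom.range := M_eq.le hg
    refine ⟨k, ?_, rfl⟩
    show (k : ↥Co0) • H15.Out.McL.ptVec (0 : Fin 275) = H15.Out.McL.ptVec (0 : Fin 275)
    exact (H15.Out.McL.fam.rho_apply k (0 : Fin 275)).symm.trans (congrArg _ h)
  · rintro ⟨k, hk, rfl⟩
    exact ⟨M_eq.ge ⟨k, rfl⟩,
      H15.Out.McL.ptVec_inj ((H15.Out.McL.fam.rho_apply k (0 : Fin 275)).trans hk)⟩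

include hK

/-- The stabiliser of a point is `PSU(4, 3)`. -/
theorem X0_iso : Nonempty (↥X0 ≃* PSU 4 K 3) := by
  have hv : sqNorm (H15.bB : H14.V) = 32 ∧ sqNorm ((H15.bV - H15.bB : ↥leechLattice) : H14.V) = 32 :=
    ⟨H15.Out.McL.pair_norms.1, H15.Out.McL.pair_norms.2.1⟩
  obtain ⟨e⟩ := H14.U43.point_iso H15.bV H15.bB (H15.Out.McL.ptVec (0 : Fin 275)) H15.bV_norm hv
    (H15.Out.McL.pt_exists (0 : Fin 275)).choose.2 K hK
  refine ⟨(((MulEquiv.subgroupCongr X0_eq).trans
    (Subgroup.equivMapOfInjective S0 modelHom H15.Out.McL.rho_inj).symm).trans ?_).trans e⟩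
  refine (MulEquiv.subgroupCongr ?_).trans (Subgroup.subgroupOfEquivOfLe inf_le_left)
  exact (Subgroup.inf_subgroupOf_left _ _).symm

theorem card_X0' : Nat.card X0 = 3265920 := by
  obtain ⟨e⟩ := X0_iso K hK
  rw [Nat.card_congr e.toEquiv]
  exact H14.U43.card_psu43 K hK

theorem isSimple_X0' : IsSimpleGroup X0 := by
  obtain ⟨e⟩ := X0_iso K hK
  have := H3.isSimpleGroup_PSU (F := K) (n := 4) (q := 3) (by rw [hK]; norm_num) (by norm_num) (by omega)
  exact e.isSimpleGroup_congr.2 this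

end

/-- Every point is an image of `0`. -/
theorem M_trans (hX : Nat.card X0 = 3265920) (x : Fin 275) : ∃ m ∈ M, m 0 = x := by
  have h := H14.card_stab_mul M (0 : Fin 275) _ rfl
  rw [show Nat.card ↥(M ⊓ MulAction.stabilizer (Perm (Fin 275)) (0 : Fin 275)) = 3265920 from hX, card_M] at h
  have huniv : MulAction.orbit M (0 : Fin 275) = Set.univ := by
    refine Set.eq_univ_of_univ_subset (Set.eq_of_subset_of_ncard_le (Set.subset_univ _) ?_).symm.subset
    rw [Set.ncard_univ, Nat.card_fin]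
    omega
  obtain ⟨m, hm⟩ : x ∈ MulAction.orbit M (0 : Fin 275) := huniv ▸ Set.mem_univ x
  exact ⟨m, m.2, hm⟩

end Cfsg.Agent.H11.McL
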