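import Cfsg.Agent.H11.McL.Aut

/-!
The graph of a transitive group on 275 points with suborbits 1, 112, 162, and its identification
around a point.
-/

set_option autoImplicit false

open Equiv Cfsg.Agent.H16 Cfsg.Agent.H36

namespace Cfsg.Agent.H11.McL

open Data

universe u

variable {Ω : Type u} [Fintype Ω] [DecidableEq Ω]

/-- The hypotheses. -/
structure Hyp (G : Subgroup (Perm Ω)) (a : Ω) where
  card : Fintype.card Ω = 275
  trans : ∀ x, ∃ g ∈ G, g a = x
  e : MulAction.stabilizer G a ≃* X0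
  cardX : Nat.card X0 = 3265920
  simple : IsSimpleGroup X0
  b : Ω
  c : Ω
  hb : (MulAction.orbit (MulAction.stabilizer G a) b).ncard = 112
  hc : (MulAction.orbit (MulAction.stabilizer G a) c).ncard = 162

namespace Hyp

open scoped Classical

variable {G : Subgroup (Perm Ω)} {a : Ω} (H : Hyp G a)

/-- The first suborbit. -/
def Ob : Set Ω := MulAction.orbit (MulAction.stabilizer G a) H.b

/-- The second suborbit. -/
def Oc : Set Ω := MulAction.orbit (MulAction.stabilizer G a) H.c

/-- An element of the stabiliser on the points. -/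
def act (x : MulAction.stabilizer G a) : Perm Ω := ((x : G) : Perm Ω)

omit [Fintype Ω] [DecidableEq Ω] in
theorem act_a (x : MulAction.stabilizer G a) : act x a = a := x.2

omit [Fintype Ω] [DecidableEq Ω] in
theorem act_mul (x y : MulAction.stabilizer G a) (z : Ω) : act (x * y) z = act x (act y z) := rfl

omit [Fintype Ω] [DecidableEq Ω] in
theorem act_inv_apply (x : MulAction.stabilizer G a) (z : Ω) : act x⁻¹ (act x z) = z := by
  rw [← act_mul, inv_mul_cancel]; rfl

theorem mem_Ob_act (x : MulAction.stabilizer G a) (z : Ω) : act x z ∈ H.Ob ↔ z ∈ H.Ob := by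
  constructor
  · intro h
    have := MulAction.mem_orbit_of_mem_orbit x⁻¹ h
    change act x⁻¹ (act x z) ∈ H.Ob at this
    rwa [act_inv_apply] at this
  · exact fun h => MulAction.mem_orbit_of_mem_orbit x h

theorem mem_Oc_act (x : MulAction.stabilizer G a) (z : Ω) : act x z ∈ H.Oc ↔ z ∈ H.Oc := by
  constructor
  · intro h
    have := MulAction.mem_orbit_of_mem_orbit x⁻¹ h
    change act x⁻¹ (act x z) ∈ H.Oc at this
    rwa [act_inv_apply] at this
  · exact fun h => MulAction.mem_orbit_of_mem_orbit x h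

theorem orbit_a : MulAction.orbit (MulAction.stabilizer G a) a = {a} := by
  ext z
  exact ⟨fun ⟨x, hx⟩ => hx ▸ x.2, fun h => by rw [h]; exact MulAction.mem_orbit_self a⟩

theorem a_not_Ob : a ∉ H.Ob := fun h => by
  have h1 := H.hb
  rw [← MulAction.orbit_eq_iff.2 h, orbit_a] at h1
  simp at h1

theorem a_not_Oc : a ∉ H.Oc := fun h => by
  have h1 := H.hc
  rw [← MulAction.orbit_eq_iff.2 h, orbit_a] at h1
  simp at h1

theorem not_both {z : Ω} (h1 : z ∈ H.Ob) (h2 : z ∈ H.Oc) : False := by
  have e1 : MulAction.orbit (MulAction.stabilizer G a) z = H.Ob := MulAction.orbit_eq_iff.2 h1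
  have e2 : MulAction.orbit (MulAction.stabilizer G a) z = H.Oc := MulAction.orbit_eq_iff.2 h2
  have := (congrArg Set.ncard (e1.symm.trans e2))
  rw [show H.Ob.ncard = 112 from H.hb, show H.Oc.ncard = 162 from H.hc] at this
  omega

theorem cover (z : Ω) : z = a ∨ z ∈ H.Ob ∨ z ∈ H.Oc := by
  by_contra hcon
  push Not at hcon
  have hd : Disjoint H.Ob H.Oc := Set.disjoint_left.2 fun y h1 h2 => H.not_both h1 h2
  have hsub : insert a (insert z (H.Ob ∪ H.Oc)) ⊆ (Set.univ : Set Ω) := Set.subset_univ _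
  have := Set.ncard_le_ncard hsub
  rw [Set.ncard_insert_of_notMem, Set.ncard_insert_of_notMem (by simp [hcon.2.1, hcon.2.2]),
    Set.ncard_union_eq hd, Set.ncard_univ, Nat.card_eq_fintype_card, H.card,
    show H.Ob.ncard = 112 from H.hb, show H.Oc.ncard = 162 from H.hc] at this
  · omega
  · simp [Ne.symm hcon.1, H.a_not_Ob, H.a_not_Oc]

/-- An element taking `a` to `x`. -/
noncomputable def t (x : Ω) : Perm Ω := (H.trans x).choose

theorem t_mem (x : Ω) : H.t x ∈ G := (H.trans x).choose_spec.1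

theorem t_a (x : Ω) : H.t x a = x := (H.trans x).choose_spec.2

/-- Adjacency. -/
def Adj (x y : Ω) : Prop := (H.t x)⁻¹ y ∈ H.Ob

theorem adj_map {g : Perm Ω} (hg : g ∈ G) (x y : Ω) : H.Adj (g x) (g y) ↔ H.Adj x y := by
  have hk : (⟨(H.t (g x))⁻¹ * g * H.t x, G.mul_mem (G.mul_mem (G.inv_mem (H.t_mem _)) hg) (H.t_mem _)⟩ : G)
      ∈ MulAction.stabilizer G a := by
    show (H.t (g x))⁻¹ (g (H.t x a)) = a
    rw [H.t_a, Perm.inv_eq_iff_eq, H.t_a]
  have e := H.mem_Ob_act ⟨_, hk⟩ ((H.t x)⁻¹ y)
  change (H.t (g x))⁻¹ (g (H.t x ((H.t x)⁻¹ y))) ∈ H.Ob ↔ _ at e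
  rwa [show H.t x ((H.t x)⁻¹ y) = y from (H.t x).apply_symm_apply y] at e

theorem adj_act (x : MulAction.stabilizer G a) (y z : Ω) : H.Adj (act x y) (act x z) ↔ H.Adj y z :=
  H.adj_map (x : G).2 y z

theorem adj_a (y : Ω) : H.Adj a y ↔ y ∈ H.Ob := by
  have hk : (⟨(H.t a)⁻¹, G.inv_mem (H.t_mem a)⟩ : G) ∈ MulAction.stabilizer G a := by
    show (H.t a)⁻¹ a = a
    rw [Perm.inv_eq_iff_eq, H.t_a]
  exact H.mem_Ob_act ⟨_, hk⟩ y

theorem adj_irrefl (x : Ω) : ¬ H.Adj x x := fun h => H.a_not_Ob (by
  have e : (H.t x)⁻¹ x = a := by rw [Perm.inv_eq_iff_eq, H.t_a]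
  exact Eq.mp (congrArg (· ∈ H.Ob) e) h)

omit [DecidableEq Ω] in
theorem card_filter_perm (g : Perm Ω) (P : Ω → Prop) [DecidablePred P] :
    (Finset.univ.filter fun y => P (g y)).card = (Finset.univ.filter P).card :=
  Finset.card_equiv g (by simp)

theorem card_Ob : (Finset.univ.filter fun y => y ∈ H.Ob).card = 112 := by
  rw [← H.hb, ← Set.ncard_coe_finset]
  exact congrArg Set.ncard (by ext; simp only [Finset.coe_filter, Finset.mem_univ, true_and]; rfl)

theorem card_Oc : (Finset.univ.filter fun y => y ∈ H.Oc).card = 162 := by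
  rw [← H.hc, ← Set.ncard_coe_finset]
  exact congrArg Set.ncard (by ext; simp only [Finset.coe_filter, Finset.mem_univ, true_and]; rfl)

theorem degree (x : Ω) : (Finset.univ.filter fun y => H.Adj x y).card = 112 := by
  rw [← H.card_Ob, ← card_filter_perm (H.t x) fun y => H.Adj x y]
  refine congrArg Finset.card (Finset.filter_congr fun y _ => ?_)
  have h := H.adj_map (H.t_mem x) a y
  rw [H.t_a] at h
  rw [h, H.adj_a]

theorem in_degree (y : Ω) : (Finset.univ.filter fun x => H.Adj x y).card = 112 := by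
  have key : ∀ y, (Finset.univ.filter fun x => H.Adj x y).card = (Finset.univ.filter fun x => H.Adj x a).card := by
    intro y
    rw [← card_filter_perm (H.t y) fun x => H.Adj x y]
    refine congrArg Finset.card (Finset.filter_congr fun x _ => ?_)
    have h := H.adj_map (H.t_mem y) x a
    rwa [H.t_a] at h
  have e : (∑ x : Ω, (Finset.univ.filter fun y => H.Adj x y).card) =
      ∑ y : Ω, (Finset.univ.filter fun x => H.Adj x y).card := by
    simp only [Finset.card_filter]
    exact Finset.sum_comm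
  simp only [H.degree, key, Finset.sum_const, Finset.card_univ, H.card, smul_eq_mul] at e
  rw [key]; omega

theorem adj_a' (y : Ω) : H.Adj y a ↔ y ∈ H.Ob := by
  set T := Finset.univ.filter fun x => H.Adj x a with hT
  have hinv : ∀ (g : MulAction.stabilizer G a) (x : Ω), H.Adj x a → H.Adj (act g x) a := fun g x h => by
    have := (H.adj_act g x a).2 h
    rwa [act_a] at this
  have hsub : T ⊆ Finset.univ.filter fun y => y ∈ H.Ob := by
    intro x hx
    simp only [hT, Finset.mem_filter, Finset.mem_univ, true_and] at hx ⊢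
    rcases H.cover x with rfl | h | h
    · exact absurd hx (H.adj_irrefl _)
    · exact h
    · exfalso
      have hsup : (Finset.univ.filter fun y => y ∈ H.Oc) ⊆ T := by
        intro w hw
        simp only [hT, Finset.mem_filter, Finset.mem_univ, true_and] at hw ⊢
        obtain ⟨g, rfl⟩ : w ∈ MulAction.orbit (MulAction.stabilizer G a) x := by
          rw [MulAction.orbit_eq_iff.2 h]; exact hw
        exact hinv g x hx
      have := Finset.card_le_card hsup
      rw [H.card_Oc, H.in_degree a] at this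
      omega
  have heq := Finset.eq_of_subset_of_card_le hsub (by rw [H.card_Ob, H.in_degree a])
  have := Finset.ext_iff.1 heq y
  simpa [hT] using this

theorem adj_symm (x y : Ω) : H.Adj x y ↔ H.Adj y x := by
  obtain ⟨z, rfl⟩ : ∃ z, H.t x z = y := ⟨_, (H.t x).apply_symm_apply y⟩
  have h1 := H.adj_map (H.t_mem x) a z
  have h2 := H.adj_map (H.t_mem x) z a
  rw [H.t_a] at h1 h2
  rw [h1, h2, H.adj_a, H.adj_a']

/-- A labelling of the first suborbit compatible with the model. -/
structure Frame where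
  ι : Fin 112 → Ω
  inj : Function.Injective ι
  range : ∀ z, z ∈ H.Ob ↔ ∃ j, ι j = z
  lift : ∀ g : X0, ∃ x : MulAction.stabilizer G a, ∀ j, act x (ι j) = ι (rho g j)

theorem exists_frame : Nonempty H.Frame := by
  set Y := MulAction.stabilizer (MulAction.stabilizer G a) H.b
  have hX : Nat.card (MulAction.stabilizer G a) = 3265920 := (Nat.card_congr H.e.toEquiv).trans H.cardX
  have hY : Nat.card (Y.map H.e.toMonoidHom) = 29160 := by
    rw [Subgroup.card_map_of_injective H.e.injective]
    have h := H14.card_stab_mul' (G := MulAction.stabilizer G a) H.b _ rfl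
    rw [H.hb, hX] at h
    have h' : 112 * Nat.card Y = 3265920 := h
    clear_value Y
    omega
  obtain ⟨i0, hi0⟩ := exists_fixed H.cardX _ hY
  have hfix : ∀ g : X0, act (H.e.symm g) H.b = H.b ↔ rho g i0 = i0 := fun g => by
    rw [← hi0]
    exact ⟨fun h => ⟨H.e.symm g, h, by simp⟩, fun ⟨x, hx, e⟩ => by
      rw [← e]; simpa using (show act x H.b = H.b from hx)⟩
  have htg : ∀ j, ∃ g : X0, rho g i0 = j := fun j => by
    obtain ⟨g, hg⟩ := transB_el j
    obtain ⟨g0, hg0⟩ := transB_el i0
    exact ⟨g * g0⁻¹, by rw [map_mul, map_inv, Perm.mul_apply, Perm.inv_eq_iff_eq.2 hg0.symm, hg]⟩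
  choose tg htg using htg
  have hspec : ∀ g : X0, act (H.e.symm g) H.b = act (H.e.symm (tg (rho g i0))) H.b := fun g => by
    have h := (hfix ((tg (rho g i0))⁻¹ * g)).2 (by
      rw [map_mul, map_inv, Perm.mul_apply, Perm.inv_eq_iff_eq, htg])
    conv_rhs => rw [← h, ← act_mul, ← map_mul, mul_inv_cancel_left]
  refine ⟨⟨fun j => act (H.e.symm (tg j)) H.b, fun j j' h => ?_, fun z => ⟨?_, ?_⟩, fun g => ⟨H.e.symm g, fun j => ?_⟩⟩⟩
  · have h' := (hfix ((tg j')⁻¹ * tg j)).1 (by
      rw [map_mul, act_mul]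
      simp only at h
      rw [h, map_inv]
      exact act_inv_apply _ _)
    rw [map_mul, map_inv, Perm.mul_apply, htg, Perm.inv_eq_iff_eq, htg] at h'
    exact h'
  · rintro ⟨x, rfl⟩
    refine ⟨rho (H.e x) i0, ?_⟩
    show act (H.e.symm (tg (rho (H.e x) i0))) H.b = act x H.b
    rw [← hspec, MulEquiv.symm_apply_apply]
  · rintro ⟨j, rfl⟩
    exact ⟨_, rfl⟩
  · show act (H.e.symm g) (act (H.e.symm (tg j)) H.b) = act (H.e.symm (tg (rho g j))) H.b
    rw [← act_mul, ← map_mul, hspec (g * tg j), map_mul, Perm.mul_apply, htg]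

variable {H}

theorem Frame.mem (F : H.Frame) (j : Fin 112) : F.ι j ∈ H.Ob := (F.range _).2 ⟨j, rfl⟩

theorem Frame.split_card (F : H.Frame) (P : Ω → Prop) [DecidablePred P] :
    (Finset.univ.filter P).card = (if P a then 1 else 0) +
      (Finset.univ.filter fun j => P (F.ι j)).card +
      (Finset.univ.filter fun z => z ∈ H.Oc ∧ P z).card := by
  have e : Finset.univ.filter P = (Finset.univ.filter fun z => z = a ∧ P z) ∪
      ((Finset.univ.filter fun j => P (F.ι j)).image F.ι) ∪ (Finset.univ.filter fun z => z ∈ H.Oc ∧ P z) := by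
    ext z
    simp only [Finset.mem_filter, Finset.mem_univ, true_and, Finset.mem_union, Finset.mem_image]
    constructor
    · intro h
      rcases H.cover z with e | e | e
      · exact Or.inl (Or.inl ⟨e, h⟩)
      · obtain ⟨j, rfl⟩ := (F.range z).1 e
        exact Or.inl (Or.inr ⟨j, h, rfl⟩)
      · exact Or.inr ⟨e, h⟩
    · rintro ((⟨-, h⟩ | ⟨j, h, rfl⟩) | ⟨-, h⟩) <;> exact h
  rw [e, Finset.card_union_of_disjoint, Finset.card_union_of_disjoint, Finset.card_image_of_injective _ F.inj]
  · congr 2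
    split_ifs with h
    · rw [show (Finset.univ.filter fun z => z = a ∧ P z) = {a} by ext z; simp; rintro rfl; exact h]; rfl
    · rw [Finset.card_eq_zero, Finset.filter_eq_empty_iff]
      rintro z - ⟨rfl, hz⟩; exact h hz
  · rw [Finset.disjoint_left]
    intro z h1 h2
    simp only [Finset.mem_filter, Finset.mem_univ, true_and, Finset.mem_image] at h1 h2
    obtain ⟨j, -, rfl⟩ := h2
    exact H.a_not_Ob (Eq.mp (congrArg (· ∈ H.Ob) h1.1) (F.mem j))
  · rw [Finset.disjoint_left]
    intro z h1 h2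
    simp only [Finset.mem_filter, Finset.mem_univ, true_and, Finset.mem_image, Finset.mem_union] at h1 h2
    rcases h1 with ⟨rfl, -⟩ | ⟨j, -, rfl⟩
    · exact H.a_not_Oc h2.1
    · exact H.not_both (F.mem j) h2.1

theorem Frame.adj_lift (F : H.Frame) (g : X0) (u v : Fin 112) :
    H.Adj (F.ι (rho g u)) (F.ι (rho g v)) ↔ H.Adj (F.ι u) (F.ι v) := by
  obtain ⟨x, hx⟩ := F.lift g
  rw [← hx, ← hx, H.adj_act]

theorem near_far (j : Fin 112) (hj : j ≠ 0) (F : H.Frame) :
    H.Adj (F.ι 0) (F.ι j) ↔ if adjB 0 j = true then H.Adj (F.ι 0) (F.ι ⟨n0, by decide⟩)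
      else H.Adj (F.ι 0) (F.ι 1) := by
  have h := transNF_ok j j.2
  simp only [transNFOk, forceNat_eq, Bool.or_eq_true] at h
  have hne : Nat.beq (j : ℕ) 0 = false := Bool.eq_false_iff.2 fun e => hj (Fin.ext (Nat.eq_of_beq_eq_true e))
  rw [hne] at h
  simp only [Bool.false_eq_true, false_or] at h
  cases hb : adjB 0 j <;> rw [hb] at h <;> simp only [Bool.and_eq_true] at h
  · obtain ⟨g, -, hg⟩ := elX h.1.1
    have h0 : rho g 0 = 0 := Fin.ext ((hg 0).trans (Nat.eq_of_beq_eq_true h.1.2))
    have h1 : rho g 1 = j := Fin.ext ((hg _).trans (Nat.eq_of_beq_eq_true h.2))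
    have := F.adj_lift g 0 1
    rw [h0, h1] at this
    simpa using this
  · obtain ⟨g, -, hg⟩ := elX h.1.1
    have h0 : rho g 0 = 0 := Fin.ext ((hg 0).trans (Nat.eq_of_beq_eq_true h.1.2))
    have h1 : rho g ⟨n0, by decide⟩ = j := Fin.ext ((hg _).trans (Nat.eq_of_beq_eq_true h.2))
    have := F.adj_lift g 0 ⟨n0, by decide⟩
    rw [h0, h1] at this
    simpa using this

theorem adjB_count : ∀ α β : Bool,
    countFrom (fun j => !(Nat.beq j 0) && (bif adjB 0 j then α else β)) 112 0 =
      bif α then (bif β then 111 else 30) else (bif β then 81 else 0) := by decide +kernel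

theorem fin_count (p : ℕ → Bool) : countFrom p 112 0 = (Finset.univ.filter fun j : Fin 112 => p j = true).card := by
  rw [countFrom_spec]
  refine (Finset.card_bij (fun (y : Fin 112) _ => (y : ℕ)) (fun y hy => ?_)
    (fun a _ c _ e => Fin.val_injective e) ?_).symm
  · simpa using hy
  · intro n hn
    obtain ⟨h1, h2⟩ := Finset.mem_filter.1 hn
    exact ⟨⟨n, by simpa using h1⟩, by simpa using h2, rfl⟩

theorem Frame.deg_A (F : H.Frame) (u : Fin 112) :
    (Finset.univ.filter fun v => H.Adj (F.ι u) (F.ι v)).card =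
      (Finset.univ.filter fun v => H.Adj (F.ι 0) (F.ι v)).card := by
  obtain ⟨g, hg⟩ := transB_el u
  refine (Finset.card_equiv (rho g) fun v => ?_).symm
  simp only [Finset.mem_filter, Finset.mem_univ, true_and]
  rw [← hg, F.adj_lift]

theorem Frame.deg_C (F : H.Frame) (u : Fin 112) :
    (Finset.univ.filter fun z => z ∈ H.Oc ∧ H.Adj (F.ι u) z).card +
      (Finset.univ.filter fun v => H.Adj (F.ι 0) (F.ι v)).card = 111 := by
  have h := F.split_card fun z => H.Adj (F.ι u) z
  rw [H.degree, if_pos ((H.adj_a' _).2 (F.mem u)), F.deg_A u] at h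
  omega

theorem mu_const (F : H.Frame) {z : Ω} (hz : z ∈ H.Oc) :
    (Finset.univ.filter fun j => H.Adj (F.ι j) z).card =
      (Finset.univ.filter fun j => H.Adj (F.ι j) H.c).card := by
  obtain ⟨x, rfl⟩ := hz
  have key : ∀ w, (Finset.univ.filter fun j => H.Adj (F.ι j) w).card =
      (Finset.univ.filter fun y => y ∈ H.Ob ∧ H.Adj y w).card := fun w => by
    refine Finset.card_bij (fun j _ => F.ι j) (fun j hj => ?_) (fun i _ j _ e => F.inj e) ?_
    · simp only [Finset.mem_filter, Finset.mem_univ, true_and] at hj ⊢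
      exact ⟨F.mem j, hj⟩
    · intro y hy
      simp only [Finset.mem_filter, Finset.mem_univ, true_and] at hy
      obtain ⟨j, rfl⟩ := (F.range y).1 hy.1
      exact ⟨j, by simpa using hy.2, rfl⟩
  rw [key, key]
  refine (Finset.card_equiv (act x) fun y => ?_).symm
  simp only [Finset.mem_filter, Finset.mem_univ, true_and]
  change _ ↔ act x y ∈ H.Ob ∧ H.Adj (act x y) (act x H.c)
  rw [H.mem_Ob_act, H.adj_act]

/-- The graph on the first suborbit is the model graph. -/
theorem frame_adj (F : H.Frame) (u v : Fin 112) : H.Adj (F.ι u) (F.ι v) ↔ adjB u v = true := by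
  set α : Bool := decide (H.Adj (F.ι 0) (F.ι ⟨n0, by decide⟩)) with hα
  set β : Bool := decide (H.Adj (F.ι 0) (F.ι 1)) with hβ
  have h0 : ∀ j : Fin 112, H.Adj (F.ι 0) (F.ι j) ↔
      (!(Nat.beq (j : ℕ) 0) && (bif adjB 0 j then α else β)) = true := by
    intro j
    by_cases hj : j = 0
    · subst hj; simp [H.adj_irrefl]
    · rw [near_far j hj F]
      have hne : Nat.beq (j : ℕ) 0 = false := Bool.eq_false_iff.2 fun e => hj (Fin.ext (Nat.eq_of_beq_eq_true e))
      rw [hne]
      cases hb : adjB 0 j <;> simp [hα, hβ]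
  set d := (Finset.univ.filter fun v => H.Adj (F.ι 0) (F.ι v)).card with hd
  have hdval : d = bif α then (bif β then 111 else 30) else (bif β then 81 else 0) := by
    rw [← adjB_count, fin_count, hd]
    exact congrArg Finset.card (Finset.filter_congr fun j _ => h0 j)
  set m := (Finset.univ.filter fun j => H.Adj (F.ι j) H.c).card with hm
  have hcount : 112 * (111 - d) = 162 * m := by
    have e : (∑ u : Fin 112, (Finset.univ.filter fun z => z ∈ H.Oc ∧ H.Adj (F.ι u) z).card) =
        ∑ z ∈ Finset.univ.filter (fun z => z ∈ H.Oc), (Finset.univ.filter fun j => H.Adj (F.ι j) z).card := by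
      simp only [Finset.card_filter]
      rw [Finset.sum_comm, Finset.sum_filter]
      refine Finset.sum_congr rfl fun z _ => ?_
      by_cases hz : z ∈ H.Oc <;> simp [hz]
    rw [Finset.sum_congr rfl fun z hz => mu_const F (Finset.mem_filter.1 hz).2, Finset.sum_const,
      H.card_Oc, smul_eq_mul] at e
    rw [← e]
    have : ∀ u : Fin 112, (Finset.univ.filter fun z => z ∈ H.Oc ∧ H.Adj (F.ι u) z).card = 111 - d := fun u => by
      have := F.deg_C u; omega
    simp [this]
  have hαβ : α = true ∧ β = false := by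
    cases hA : α <;> cases hB : β <;> rw [hA, hB] at hdval <;> simp only [cond_true, cond_false] at hdval <;>
      rw [hdval] at hcount
    · omega
    · omega
    · exact ⟨rfl, rfl⟩
    · exfalso
      have hm0 : m = 0 := by omega
      have hfull : ∀ y z, y ∈ H.Ob → z ∈ H.Ob → y ≠ z → H.Adj y z := by
        intro y z hy hz hne
        obtain ⟨j, rfl⟩ := (F.range y).1 hy
        obtain ⟨k, rfl⟩ := (F.range z).1 hz
        obtain ⟨g, hg⟩ := transB_el j
        obtain ⟨k', rfl⟩ : ∃ k', rho g k' = k := ⟨_, (rho g).apply_symm_apply k⟩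
        rw [← hg, F.adj_lift, h0]
        have hk0 : k' ≠ 0 := fun e => hne (by rw [e, hg])
        have hne' : Nat.beq (k' : ℕ) 0 = false :=
          Bool.eq_false_iff.2 fun e => hk0 (Fin.ext (Nat.eq_of_beq_eq_true e))
        rw [hne', hA, hB]; cases adjB 0 k' <;> rfl
      have hclique : ∀ x y z, H.Adj x y → H.Adj x z → y ≠ z → H.Adj y z := by
        intro x y z hy hz hne
        obtain ⟨y', rfl⟩ : ∃ y', H.t x y' = y := ⟨_, (H.t x).apply_symm_apply y⟩
        obtain ⟨z', rfl⟩ : ∃ z', H.t x z' = z := ⟨_, (H.t x).apply_symm_apply z⟩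
        rw [H.adj_map (H.t_mem x)]
        refine hfull y' z' ?_ ?_ fun e => hne (by rw [e])
        · simpa [Adj] using hy
        · simpa [Adj] using hz
      have hN : ∀ z ∈ H.Oc, ∀ w, H.Adj z w → w ∈ H.Oc := by
        intro z hz w hw
        rcases H.cover w with rfl | e | e
        · exact absurd hz (fun h => H.not_both ((H.adj_a' z).1 hw) h)
        · exfalso
          obtain ⟨j, rfl⟩ := (F.range w).1 e
          have := mu_const F hz
          rw [← hm, hm0, Finset.card_eq_zero, Finset.filter_eq_empty_iff] at this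
          exact this (Finset.mem_univ j) ((H.adj_symm _ _).1 hw)
        · exact e
      set N : Ω → Finset Ω := fun z => Finset.univ.filter fun w => w = z ∨ H.Adj z w with hNdef
      have hNcard : ∀ z, (N z).card = 113 := fun z => by
        rw [show N z = insert z (Finset.univ.filter fun w => H.Adj z w) by ext w; simp [hNdef],
          Finset.card_insert_of_notMem (by simp [H.adj_irrefl]), H.degree]
      have hNsub : ∀ z ∈ H.Oc, N z ⊆ Finset.univ.filter fun w => w ∈ H.Oc := fun z hz w hw => by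
        simp only [hNdef, Finset.mem_filter, Finset.mem_univ, true_and] at hw ⊢
        rcases hw with rfl | hw
        exacts [hz, hN z hz w hw]
      have hcc : H.c ∈ H.Oc := MulAction.mem_orbit_self _
      obtain ⟨w, hw1, hw2⟩ : ∃ w ∈ Finset.univ.filter (fun w => w ∈ H.Oc), w ∉ N H.c :=
        Finset.exists_mem_notMem_of_card_lt_card (by rw [hNcard, H.card_Oc]; norm_num)
      have hwO : w ∈ H.Oc := (Finset.mem_filter.1 hw1).2
      have hdisj : Disjoint (N H.c) (N w) := by
        rw [Finset.disjoint_left]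
        intro x h1 h2
        apply hw2
        simp only [hNdef, Finset.mem_filter, Finset.mem_univ, true_and] at h1 h2 ⊢
        rcases h1 with rfl | h1 <;> rcases h2 with h2 | h2
        · exact Or.inl h2.symm
        · exact Or.inr ((H.adj_symm _ _).1 h2)
        · exact Or.inr (h2 ▸ h1)
        · by_cases he : w = H.c
          · exact Or.inl he
          · exact Or.inr (hclique x H.c w ((H.adj_symm _ _).1 h1) ((H.adj_symm _ _).1 h2) (Ne.symm he))
      have := Finset.card_le_card (Finset.union_subset (hNsub _ hcc) (hNsub _ hwO))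
      rw [Finset.card_union_of_disjoint hdisj, hNcard, hNcard, H.card_Oc] at this
      omega
  obtain ⟨g, hg⟩ := transB_el u
  obtain ⟨v', rfl⟩ : ∃ v', rho g v' = v := ⟨_, (rho g).apply_symm_apply v⟩
  rw [← hg, F.adj_lift, h0, rho_aut g 0 v', hαβ.1, hαβ.2]
  by_cases hv : v' = 0
  · subst hv
    have hz := adjB_irrefl 0
    simpa using hz
  · have hne : Nat.beq (v' : ℕ) 0 = false := Bool.eq_false_iff.2 fun e => hv (Fin.ext (Nat.eq_of_beq_eq_true e))
    rw [hne, show ((0 : Fin 112) : ℕ) = 0 from rfl]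
    cases adjB 0 v' <;> simp

theorem lambda_eq (F : H.Frame) {x y : Ω} (h : H.Adj x y) :
    (Finset.univ.filter fun w => H.Adj x w ∧ H.Adj y w).card = 30 := by
  obtain ⟨y', rfl⟩ : ∃ y', H.t x y' = y := ⟨_, (H.t x).apply_symm_apply y⟩
  have hy : y' ∈ H.Ob := by simpa [Adj] using h
  obtain ⟨u, rfl⟩ := (F.range y').1 hy
  refine (Finset.card_equiv (H.t x) (s := Finset.univ.filter fun w => w ∈ H.Ob ∧ H.Adj (F.ι u) w)
    fun w => ?_).symm.trans ?_
  · simp only [Finset.mem_filter, Finset.mem_univ, true_and]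
    rw [H.adj_map (H.t_mem x) (F.ι u) w]
    refine and_congr_left' ?_
    have := H.adj_map (H.t_mem x) a w
    rw [H.t_a] at this
    rw [this, H.adj_a]
  rw [F.split_card fun w => w ∈ H.Ob ∧ H.Adj (F.ι u) w,
    if_neg (fun h => H.a_not_Ob h.1)]
  have h1 : (Finset.univ.filter fun z => z ∈ H.Oc ∧ (z ∈ H.Ob ∧ H.Adj (F.ι u) z)) = ∅ := by
    rw [Finset.filter_eq_empty_iff]
    exact fun z _ h => H.not_both h.2.1 h.1
  have h2 : (Finset.univ.filter fun j => F.ι j ∈ H.Ob ∧ H.Adj (F.ι u) (F.ι j)).card = 30 := by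
    rw [Finset.filter_congr fun j _ => (and_iff_right (F.mem j)), F.deg_A u]
    have hn := num_ok
    simp only [numOk, Bool.and_eq_true] at hn
    rw [← Nat.eq_of_beq_eq_true hn.1.1.1.2, cntB, fin_count]
    exact congrArg Finset.card (Finset.filter_congr fun j _ => frame_adj F 0 j)
  rw [h1, h2, Finset.card_empty]

end Hyp

end Cfsg.Agent.H11.McL
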