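import Cfsg.Agent.H11.McL.Orbital
import Cfsg.Agent.H11.McL.Hemi

/-!
The graph of the group is the McLaughlin graph, and the group is the McLaughlin group.
-/

set_option autoImplicit false

open Equiv Cfsg.Agent.H16 Cfsg.Agent.H36

namespace Cfsg.Agent.H11.McL

open Data

universe u

variable {Ω : Type u} [Fintype Ω] [DecidableEq Ω]

namespace Hyp

open scoped Classical

variable {G : Subgroup (Perm Ω)} {a : Ω} {H : Hyp G a}

/-- The members of a line. -/
theorem mem4_lt {k : ℕ} (hk : k < 280) : ∀ x ∈ mem4 k, x < 112 := by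
  intro x hx
  have h := line_ok k hk
  obtain ⟨i, hi, rfl⟩ := List.getElem_of_mem hx
  have hi4 : i < 4 := by simpa [mem4] using hi
  have h1 := allFrom_spec (allFrom_spec h i (Nat.zero_le _) (by omega)) i (Nat.zero_le _) (by omega)
  simp only [forceNat_eq, Bool.and_eq_true, Nat.blt_eq] at h1
  rw [getN_eq_getD, List.getD_eq_getElem _ _ hi] at h1
  exact h1.1

/-- The members of a line, as points. -/
noncomputable def lineP {k : ℕ} (hk : k < 280) (i : Fin 4) : Fin 112 :=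
  ⟨getN (mem4 k) i, mem4_lt hk _ (getN_mem _ (by simp [mem4]))⟩

theorem lineP_adj {k : ℕ} (hk : k < 280) {i j : Fin 4} (hij : i ≠ j) :
    adjB (lineP hk i) (lineP hk j) = true ∧
      (Finset.univ.filter fun w : Fin 112 => adjB (lineP hk i) w = true ∧ adjB (lineP hk j) w = true).card = 2 := by
  have h := allFrom_spec (allFrom_spec (line_ok k hk) i (Nat.zero_le _) (by omega)) j (Nat.zero_le _) (by omega)
  simp only [forceNat_eq, Bool.and_eq_true, Bool.or_eq_true] at h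
  obtain ⟨-, h⟩ := h
  rcases h with e | ⟨⟨-, e1⟩, e2⟩
  · exact absurd (Fin.ext (Nat.eq_of_beq_eq_true e)) hij
  · refine ⟨e1, ?_⟩
    rw [← Nat.eq_of_beq_eq_true e2, cntB, fin_count]
    exact congrArg Finset.card (Finset.filter_congr fun w _ => by simp [lineP])

/-- The trace of a point on the first suborbit. -/
noncomputable def trace (F : H.Frame) (z : Ω) (x : ℕ) : Bool :=
  if h : x < 112 then decide (H.Adj z (F.ι ⟨x, h⟩)) else false

theorem common_C (F : H.Frame) {k : ℕ} (hk : k < 280) (i j : Fin 4) :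
    (Finset.univ.filter fun z => z ∈ H.Oc ∧ H.Adj z (F.ι (lineP hk i)) ∧ H.Adj z (F.ι (lineP hk j))).card =
      if i = j then 81 else 27 := by
  have hflip : (Finset.univ.filter fun z => z ∈ H.Oc ∧ H.Adj z (F.ι (lineP hk i)) ∧ H.Adj z (F.ι (lineP hk j))) =
      Finset.univ.filter fun z => z ∈ H.Oc ∧ H.Adj (F.ι (lineP hk i)) z ∧ H.Adj (F.ι (lineP hk j)) z :=
    Finset.filter_congr fun z _ => by rw [H.adj_symm z, H.adj_symm z]
  rw [hflip]
  by_cases hij : i = j
  · subst hij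
    rw [if_pos rfl]
    have hn := num_ok
    simp only [numOk, Bool.and_eq_true] at hn
    have h30 : (Finset.univ.filter fun v => H.Adj (F.ι 0) (F.ι v)).card = 30 := by
      rw [← Nat.eq_of_beq_eq_true hn.1.1.1.2, cntB, fin_count]
      exact congrArg Finset.card (Finset.filter_congr fun j _ => frame_adj F 0 j)
    have h := F.deg_C (lineP hk i)
    rw [h30] at h
    have e : (Finset.univ.filter fun z => z ∈ H.Oc ∧ H.Adj (F.ι (lineP hk i)) z ∧ H.Adj (F.ι (lineP hk i)) z) =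
        Finset.univ.filter fun z => z ∈ H.Oc ∧ H.Adj (F.ι (lineP hk i)) z :=
      Finset.filter_congr fun z _ => by rw [and_self]
    rw [e]; omega
  · rw [if_neg hij]
    obtain ⟨ha, h2⟩ := lineP_adj hk hij
    have h := F.split_card fun z => H.Adj (F.ι (lineP hk i)) z ∧ H.Adj (F.ι (lineP hk j)) z
    rw [lambda_eq F ((frame_adj F _ _).2 ha),
      if_pos ⟨(H.adj_a' _).2 (F.mem _), (H.adj_a' _).2 (F.mem _)⟩] at h
    have e : (Finset.univ.filter fun w => H.Adj (F.ι (lineP hk i)) (F.ι w) ∧ H.Adj (F.ι (lineP hk j)) (F.ι w)).card = 2 := by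
      rw [← h2]
      exact congrArg Finset.card (Finset.filter_congr fun w _ => by rw [frame_adj F, frame_adj F])
    rw [e] at h
    omega

theorem line_two (F : H.Frame) {z : Ω} (hz : z ∈ H.Oc) :
    ∀ k, k < 280 → (mem4 k).countP (trace F z) = 2 := by
  intro k hk
  set n : Ω → ℕ := fun w => ∑ i : Fin 4, if H.Adj w (F.ι (lineP hk i)) then 1 else 0 with hn
  set Cs := Finset.univ.filter fun w => w ∈ H.Oc with hCs
  have hpair : ∀ i j : Fin 4,
      ∑ w ∈ Cs, ((if H.Adj w (F.ι (lineP hk i)) then (1 : ℕ) else 0) * if H.Adj w (F.ι (lineP hk j)) then 1 else 0) =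
      if i = j then 81 else 27 := by
    intro i j
    rw [← common_C F hk i j, Finset.card_filter, hCs, Finset.sum_filter]
    refine Finset.sum_congr rfl fun w _ => ?_
    split_ifs <;> simp_all
  have h1 : ∑ w ∈ Cs, n w = 324 := by
    rw [hn, Finset.sum_comm]
    have : ∀ i : Fin 4, (∑ w ∈ Cs, if H.Adj w (F.ι (lineP hk i)) then (1 : ℕ) else 0) = 81 := fun i => by
      have := hpair i i
      rw [if_pos rfl] at this
      rw [← this]
      exact Finset.sum_congr rfl fun w _ => by split_ifs <;> simp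
    rw [Finset.sum_congr rfl fun i _ => this i]; rfl
  have h2 : ∑ w ∈ Cs, n w * n w = 648 := by
    simp only [hn, Finset.sum_mul_sum]
    rw [Finset.sum_comm, Finset.sum_congr rfl fun i _ => Finset.sum_comm,
      Finset.sum_congr rfl fun i _ => Finset.sum_congr rfl fun j _ => hpair i j]
    decide
  have h3 : ∑ w ∈ Cs, ((n w : ℤ) - 2) ^ 2 = 0 := by
    have e : ∀ w, ((n w : ℤ) - 2) ^ 2 = ((n w * n w : ℕ) : ℤ) - 4 * (n w : ℤ) + 4 := fun w => by push_cast; ring
    rw [Finset.sum_congr rfl fun w _ => e w, Finset.sum_add_distrib, Finset.sum_sub_distrib, ← Finset.mul_sum,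
      ← Nat.cast_sum, ← Nat.cast_sum, h1, h2, Finset.sum_const, hCs, H.card_Oc]
    norm_num
  have h4 := (Finset.sum_eq_zero_iff_of_nonneg fun w _ => sq_nonneg _).1 h3 z (by simp [hCs, hz])
  have h5 : n z = 2 := by
    have := pow_eq_zero_iff (two_ne_zero) |>.1 h4
    omega
  rw [← h5, hn]
  have hl : mem4 k = [((lineP hk 0 : Fin 112) : ℕ), (lineP hk 1 : Fin 112), (lineP hk 2 : Fin 112), (lineP hk 3 : Fin 112)] := by
    simp only [lineP, mem4, forceNat_eq]; rfl
  rw [hl]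
  simp only [List.countP_cons, List.countP_nil, Fin.sum_univ_four, trace, Fin.is_lt, dif_pos, Fin.eta,
    decide_eq_true_eq, zero_add]
  ring

theorem exists_pq (F : H.Frame) :
    ∃ z ∈ H.Oc, H.Adj z (F.ι 0) ∧ ∃ h : q0 < 112, H.Adj z (F.ι ⟨q0, h⟩) := by
  have hn := num_ok
  simp only [numOk, Bool.and_eq_true, Bool.not_eq_true', Nat.blt_eq] at hn
  obtain ⟨⟨⟨⟨⟨⟨⟨⟨-, -⟩, hq⟩, hq112⟩, hq0⟩, h30⟩, -⟩, -⟩, hfew⟩ := hn
  have hq0' : (⟨q0, hq112⟩ : Fin 112) ≠ 0 := fun e => by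
    have : q0 = 0 := congrArg Fin.val e
    rw [this] at hq0; exact Bool.noConfusion hq0
  obtain ⟨z, hz, hz0⟩ : ∃ z ∈ H.Oc, H.Adj z (F.ι 0) := by
    have h := F.deg_C 0
    have h30' : (Finset.univ.filter fun v => H.Adj (F.ι 0) (F.ι v)).card = 30 := by
      rw [← Nat.eq_of_beq_eq_true h30, cntB, fin_count]
      exact congrArg Finset.card (Finset.filter_congr fun j _ => frame_adj F 0 j)
    rw [h30'] at h
    obtain ⟨z, hz⟩ := Finset.card_pos.1 (show 0 < (Finset.univ.filter fun z => z ∈ H.Oc ∧ H.Adj (F.ι 0) z).card by omega)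
    simp only [Finset.mem_filter, Finset.mem_univ, true_and] at hz
    exact ⟨z, hz.1, (H.adj_symm _ _).1 hz.2⟩
  obtain ⟨v, hv0, hvn, hzv⟩ : ∃ v : Fin 112, v ≠ 0 ∧ adjB 0 v = false ∧ H.Adj z (F.ι v) := by
    by_contra hcon
    push Not at hcon
    have hk : lFew < 280 := by decide
    have h1 := line_two F hz lFew hk
    have hle : (mem4 lFew).countP (trace F z) ≤ (mem4 lFew).countP fun x => Nat.beq x 0 || adjB 0 x := by
      refine List.countP_mono_left fun x hx hh => ?_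
      have hx112 := mem4_lt hk x hx
      simp only [trace, dif_pos hx112, decide_eq_true_eq] at hh
      rw [Bool.or_eq_true]
      by_cases h0 : (⟨x, hx112⟩ : Fin 112) = 0
      · left
        have : x = 0 := congrArg Fin.val h0
        simp [this]
      · right
        cases hb : adjB 0 x
        · exact absurd hh (hcon _ h0 hb)
        · rfl
    rw [h1, Nat.eq_of_beq_eq_true hfew] at hle
    omega
  have far : ∀ w : Fin 112, w ≠ 0 → adjB 0 w = false → ∃ g : X0, rho g 0 = 0 ∧ rho g 1 = w := by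
    intro w hw hb
    have h := transNF_ok w w.2
    simp only [transNFOk, forceNat_eq, Bool.or_eq_true] at h
    have hne : Nat.beq (w : ℕ) 0 = false := Bool.eq_false_iff.2 fun e => hw (Fin.ext (Nat.eq_of_beq_eq_true e))
    rw [hne, hb] at h
    simp only [Bool.false_eq_true, false_or, Bool.and_eq_true] at h
    obtain ⟨g, -, hg⟩ := elX h.1.1
    exact ⟨g, Fin.ext ((hg 0).trans (Nat.eq_of_beq_eq_true h.1.2)), Fin.ext ((hg _).trans (Nat.eq_of_beq_eq_true h.2))⟩
  obtain ⟨g, g0, g1⟩ := far v hv0 hvn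
  obtain ⟨k, k0, k1⟩ := far _ hq0' hq
  obtain ⟨x, hx⟩ := F.lift (k * g⁻¹)
  have e0 : rho (k * g⁻¹) 0 = 0 := by
    rw [map_mul, map_inv, Perm.mul_apply, Perm.inv_eq_iff_eq.2 g0.symm, k0]
  have e1 : rho (k * g⁻¹) v = ⟨q0, hq112⟩ := by
    rw [map_mul, map_inv, Perm.mul_apply, Perm.inv_eq_iff_eq.2 g1.symm, k1]
  refine ⟨act x z, (H.mem_Oc_act x z).2 hz, ?_, hq112, ?_⟩
  · rw [← e0, ← hx, H.adj_act]; exact hz0
  · rw [← e1, ← hx, H.adj_act]; exact hzv

/-- An automorphism of the graph on 112 points. -/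
theorem sig_perm {k : ℕ} (hk : k < 4) :
    ∃ σ : Perm (Fin 112), σ ∈ autB ∧ ∀ x : Fin 112, (σ x : ℕ) = sigN k x := by
  have h : ∀ i : Fin 112, sigN k i < 112 ∧ sigInvN k i < 112 ∧ sigN k (sigInvN k i) = i ∧
      sigInvN k (sigN k i) = i ∧ ∀ j : Fin 112, adjB (sigN k i) (sigN k j) = adjB i j := fun i => by
    have h := allFrom_spec (sig_ok k hk) i (Nat.zero_le _) (by omega)
    simp only [Bool.and_eq_true, Nat.blt_eq] at h
    exact ⟨h.1.1.1.1, h.1.1.1.2, Nat.eq_of_beq_eq_true h.1.1.2, Nat.eq_of_beq_eq_true h.1.2,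
      fun j => brec_eq (allFrom_spec h.2 j (Nat.zero_le _) (by omega))⟩
  exact ⟨{ toFun := fun i => ⟨sigN k i, (h i).1⟩
           invFun := fun i => ⟨sigInvN k i, (h i).2.1⟩
           left_inv := fun i => Fin.ext (h i).2.2.2.1
           right_inv := fun i => Fin.ext (h i).2.2.1 },
    fun x y => (h x).2.2.2.2 y, fun _ => rfl⟩

/-- Some labelling gives some point of the second suborbit a trace of the model. -/
theorem exists_frame_trace : ∃ (F : H.Frame) (z : Ω) (j : Fin 162), z ∈ H.Oc ∧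
    ∀ u : Fin 112, H.Adj z (F.ι u) ↔ inS j u = true := by
  obtain ⟨F⟩ := H.exists_frame
  obtain ⟨z, hz, hz0, hq, hzq⟩ := exists_pq F
  have hA : Agree (trace F z) (Nat.lor 1 (Nat.shiftLeft 1 q0)) 0 := by
    intro x hx
    refine ⟨fun h => ?_, fun h => ?_⟩
    · rw [tb_eq, show Nat.lor 1 (Nat.shiftLeft 1 q0) = 2 ^ 0 ||| (1 <<< q0) from rfl, Nat.testBit_or,
        Nat.testBit_two_pow, Nat.one_shiftLeft, Nat.testBit_two_pow, Bool.or_eq_true, decide_eq_true_eq,
        decide_eq_true_eq] at h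
      rcases h with rfl | rfl
      · simp only [trace, dif_pos hx, decide_eq_true_eq]; exact hz0
      · simp only [trace, dif_pos hx, decide_eq_true_eq]; exact hzq
    · rw [tb_eq, Nat.zero_testBit] at h; exact Bool.noConfusion h
  obtain ⟨k, j, hk, hj, hS⟩ := treeOk_spec (line_two F hz) (fun k hk => mem4_lt hk) htree _ _ tree_ok hA
  obtain ⟨σ, hσ, hσv⟩ := sig_perm hk
  let F' : H.Frame :=
    { ι := fun u => F.ι (σ⁻¹ u)
      inj := F.inj.comp (σ⁻¹).injective
      range := fun w => by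
        rw [F.range]
        exact ⟨fun ⟨v, hv⟩ => ⟨σ v, by simpa using hv⟩, fun ⟨v, hv⟩ => ⟨_, hv⟩⟩
      lift := fun g => by
        obtain ⟨g', hg'⟩ := normalises H.simple (autB.inv_mem hσ) g
        obtain ⟨x, hx⟩ := F.lift g'
        refine ⟨x, fun u => ?_⟩
        show act x (F.ι (σ⁻¹ u)) = F.ι (σ⁻¹ (rho g u))
        rw [hx, hg']
        simp }
  refine ⟨F', z, ⟨j, hj⟩, hz, fun u => ?_⟩
  have h := hS (σ⁻¹ u : Fin 112) (σ⁻¹ u).2
  rw [← hσv, show σ (σ⁻¹ u) = u from σ.apply_symm_apply u] at h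
  show H.Adj z (F.ι (σ⁻¹ u)) ↔ inS j u = true
  rw [← h]
  simp [trace]

variable (H) in
/-- A complete labelling of the graph. -/
structure Labelling extends H.Frame where
  ζ : Fin 162 → Ω
  ζ_mem : ∀ c, ζ c ∈ H.Oc
  ζ_trace : ∀ c u, H.Adj (ζ c) (ι u) ↔ inS (c : Fin 162) (u : Fin 112) = true

theorem exists_labelling : Nonempty H.Labelling := by
  obtain ⟨F, z, j, hz, hS⟩ := exists_frame_trace (H := H)
  have : ∀ c : Fin 162, ∃ w ∈ H.Oc, ∀ u : Fin 112, H.Adj w (F.ι u) ↔ inS c u = true := by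
    intro c
    obtain ⟨g1, h1⟩ := transC_el j
    obtain ⟨g2, h2⟩ := transC_el c
    obtain ⟨x, hx⟩ := F.lift (g2 * g1⁻¹)
    have hg : ((g2 * g1⁻¹ : X0) : Perm (Fin 275)) (cpt j) = cpt c := by
      rw [Subgroup.coe_mul, Subgroup.coe_inv, Perm.mul_apply, Perm.inv_eq_iff_eq.2 h1.symm, h2]
    refine ⟨act x z, (H.mem_Oc_act x z).2 hz, fun u => ?_⟩
    obtain ⟨u, rfl⟩ : ∃ u', rho (g2 * g1⁻¹) u' = u := ⟨_, (rho (g2 * g1⁻¹)).apply_symm_apply u⟩
    rw [← hx, H.adj_act, hS,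
      ← cmap_inS ⟨_, X0_le (g2 * g1⁻¹).2⟩ (show ((⟨_, X0_le (g2 * g1⁻¹).2⟩ : A0) : Perm (Fin 275)) (cpt j) = cpt c from hg) u]
    rfl
  choose ζ hζ hζ' using this
  exact ⟨{ toFrame := F, ζ := ζ, ζ_mem := hζ, ζ_trace := hζ' }⟩

namespace Labelling

variable (L : H.Labelling)

theorem ζ_inj : Function.Injective L.ζ := fun c c' e => inS_ext fun u => by
  rw [Bool.eq_iff_iff, ← L.ζ_trace, ← L.ζ_trace, e]

theorem ζ_range {z : Ω} (hz : z ∈ H.Oc) : ∃ c, L.ζ c = z := by
  have e : Finset.univ.image L.ζ = Finset.univ.filter fun z => z ∈ H.Oc := by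
    refine Finset.eq_of_subset_of_card_le ?_ ?_
    · intro w hw
      obtain ⟨c, -, rfl⟩ := Finset.mem_image.1 hw
      simp [L.ζ_mem c]
    · rw [H.card_Oc, Finset.card_image_of_injective _ L.ζ_inj, Finset.card_fin]
  have : z ∈ Finset.univ.image L.ζ := by rw [e]; simp [hz]
  simpa using this

/-- Every element of the model stabiliser lifts. -/
theorem full_lift (g : X0) : ∃ x : MulAction.stabilizer G a, (∀ u, act x (L.ι u) = L.ι (rho g u)) ∧
    ∀ c c' : Fin 162, (g : Perm (Fin 275)) (cpt c) = cpt c' → act x (L.ζ c) = L.ζ c' := by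
  obtain ⟨x, hx⟩ := L.lift g
  refine ⟨x, hx, fun c c' hc => ?_⟩
  obtain ⟨d, hd⟩ := L.ζ_range ((H.mem_Oc_act x _).2 (L.ζ_mem c))
  rw [← hd]
  congr 1
  refine inS_ext fun u => ?_
  obtain ⟨u, rfl⟩ : ∃ u', rho g u' = u := ⟨_, (rho g).apply_symm_apply u⟩
  rw [Bool.eq_iff_iff, ← L.ζ_trace, hd, ← hx, H.adj_act, L.ζ_trace,
    ← cmap_inS ⟨_, X0_le g.2⟩ (show ((⟨_, X0_le g.2⟩ : A0) : Perm (Fin 275)) (cpt c) = cpt c' from hc) u]
  rfl

theorem adj_zero_C (c : Fin 162) : H.Adj (L.ζ 0) (L.ζ c) ↔ adjN (cpt 0) (cpt c) = true := by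
  have hn := num_ok
  simp only [numOk, Bool.and_eq_true] at hn
  have h56S : (Finset.univ.filter fun u : Fin 112 => inS (0 : ℕ) u = true).card = 56 := by
    rw [← Nat.eq_of_beq_eq_true hn.1.1.2, cntB, fin_count]
  have h56M : (Finset.univ.filter fun c : Fin 162 => adjN (cpt 0) (cpt c) = true).card = 56 := by
    rw [← Nat.eq_of_beq_eq_true hn.1.2, countFrom_spec]
    refine Finset.card_bij (fun (y : Fin 162) _ => (y : ℕ)) (fun y hy => ?_)
      (fun a _ c _ e => Fin.val_injective e) ?_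
    · simp only [Finset.mem_filter, Finset.mem_univ, true_and] at hy
      exact Finset.mem_filter.2 ⟨Finset.mem_Ico.2 ⟨Nat.zero_le _, by omega⟩, hy⟩
    · intro n hn
      obtain ⟨h1, h2⟩ := Finset.mem_filter.1 hn
      exact ⟨⟨n, by simpa using h1⟩, by simp only [Finset.mem_filter, Finset.mem_univ, true_and]; exact h2, rfl⟩
  set NG := Finset.univ.filter fun c : Fin 162 => H.Adj (L.ζ 0) (L.ζ c) with hNG
  have hG : NG.card = 56 := by
    have h := L.toFrame.split_card fun w => H.Adj (L.ζ 0) w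
    rw [H.degree, if_neg (fun h => H.not_both ((H.adj_a' _).1 h) (L.ζ_mem 0))] at h
    have e1 : (Finset.univ.filter fun u => H.Adj (L.ζ 0) (L.ι u)).card = 56 := by
      rw [← h56S]; exact congrArg Finset.card (Finset.filter_congr fun u _ => L.ζ_trace 0 u)
    have e2 : NG.card = (Finset.univ.filter fun w => w ∈ H.Oc ∧ H.Adj (L.ζ 0) w).card := by
      refine Finset.card_bij (fun c _ => L.ζ c) (fun c hc => ?_) (fun a _ c _ e => L.ζ_inj e) ?_
      · simp only [hNG, Finset.mem_filter, Finset.mem_univ, true_and] at hc ⊢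
        exact ⟨L.ζ_mem c, hc⟩
      · intro w hw
        simp only [Finset.mem_filter, Finset.mem_univ, true_and] at hw
        obtain ⟨c, rfl⟩ := L.ζ_range hw.1
        exact ⟨c, by simpa [hNG] using hw.2, rfl⟩
    rw [e1] at h
    omega
  have hsub : NG ⊆ Finset.univ.filter fun c : Fin 162 => adjN (cpt 0) (cpt c) = true := by
    intro c hc
    simp only [hNG, Finset.mem_filter, Finset.mem_univ, true_and] at hc ⊢
    have hr := row_ok c c.2
    simp only [rowOk, Bool.or_eq_true, Nat.blt_eq] at hr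
    rcases hr with (hr | hr) | hr
    · obtain rfl : c = 0 := Fin.ext (Nat.eq_of_beq_eq_true hr)
      exact absurd hc (H.adj_irrefl _)
    · exact hr
    · exfalso
      have h := L.toFrame.split_card fun w => H.Adj (L.ζ 0) w ∧ H.Adj (L.ζ c) w
      rw [lambda_eq L.toFrame hc] at h
      have e : (Finset.univ.filter fun u => H.Adj (L.ζ 0) (L.ι u) ∧ H.Adj (L.ζ c) (L.ι u)).card =
          cntB fun i => inS 0 i && inS c i := by
        rw [cntB, fin_count]
        exact congrArg Finset.card (Finset.filter_congr fun u _ => by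
          rw [Bool.and_eq_true, L.ζ_trace, L.ζ_trace]; rfl)
      rw [e] at h
      omega
  have heq := Finset.eq_of_subset_of_card_le hsub (by rw [hG, h56M])
  have := Finset.ext_iff.1 heq c
  simpa [hNG] using this

theorem adj_C (c c' : Fin 162) : H.Adj (L.ζ c) (L.ζ c') ↔ adjN (cpt c) (cpt c') = true := by
  obtain ⟨g, hg⟩ := transC_el c
  obtain ⟨d, hd⟩ := cmap_exists ⟨_, X0_le (g⁻¹).2⟩ c'
  have hd' : (g : Perm (Fin 275)) (cpt d) = cpt c' := by
    rw [← hd, Subgroup.coe_inv]; exact (g : Perm (Fin 275)).apply_symm_apply _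
  obtain ⟨x, -, hx⟩ := L.full_lift g
  rw [← hx 0 c hg, ← hx d c' hd', H.adj_act, L.adj_zero_C, ← hg, ← hd', M_le_aut g.2.1]

/-- The point with a given label. -/
noncomputable def Φ (x : Fin 275) : Ω :=
  if x = 0 then a else
    if h : kind x = 1 ∧ idx x < 112 then L.ι ⟨idx x, h.2⟩ else
      if h : idx x < 162 then L.ζ ⟨idx x, h⟩ else a

theorem kind_zero : kind ((0 : Fin 275) : ℕ) = 0 := by decide +kernel

theorem Φ_zero : L.Φ 0 = a := if_pos rfl

theorem Φ_bpt (i : Fin 112) : L.Φ (bpt i) = L.ι i := by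
  have hne : bpt i ≠ 0 := fun e => by
    have := (bpt_facts i).2.1
    rw [e, kind_zero] at this; omega
  rw [Φ, if_neg hne, dif_pos ⟨(bpt_facts i).2.1, by rw [(bpt_facts i).1]; exact i.2⟩]
  congr 1; exact Fin.ext (bpt_facts i).1

theorem Φ_cpt (c : Fin 162) : L.Φ (cpt c) = L.ζ c := by
  have hne : cpt c ≠ 0 := fun e => by
    have := (cpt_facts c).2.1
    rw [e, kind_zero] at this; omega
  rw [Φ, if_neg hne, dif_neg (fun h => by rw [(cpt_facts c).2.1] at h; omega),
    dif_pos (by rw [(cpt_facts c).1]; exact c.2)]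
  congr 1; exact Fin.ext (cpt_facts c).1

theorem Φ_bij : Function.Bijective L.Φ := by
  rw [Fintype.bijective_iff_surjective_and_card]
  refine ⟨fun z => ?_, by rw [Fintype.card_fin, H.card]⟩
  rcases H.cover z with rfl | h | h
  · exact ⟨0, L.Φ_zero⟩
  · obtain ⟨j, rfl⟩ := (L.range z).1 h
    exact ⟨_, L.Φ_bpt j⟩
  · obtain ⟨c, rfl⟩ := L.ζ_range h
    exact ⟨_, L.Φ_cpt c⟩

theorem Φ_adj (x y : Fin 275) : H.Adj (L.Φ x) (L.Φ y) ↔ adjN x y = true := by
  have hsymm : ∀ u v : Fin 275, adjN u v = adjN v u := fun u v => (pt_facts u).2 v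
  rcases pt_cases x with rfl | ⟨i, rfl⟩ | ⟨c, rfl, hc⟩ <;>
    rcases pt_cases y with rfl | ⟨j, rfl⟩ | ⟨d, rfl, hd⟩
  · exact iff_of_false (H.adj_irrefl _) (by rw [(pt_facts 0).1]; simp)
  · rw [Φ_zero, Φ_bpt]; exact iff_of_true ((H.adj_a _).2 (L.mem j)) (bpt_facts j).2.2.1
  · rw [Φ_zero, Φ_cpt, H.adj_a]
    exact iff_of_false (fun h => H.not_both h (L.ζ_mem d)) (fun h => Bool.noConfusion (hd.symm.trans h))
  · rw [Φ_zero, Φ_bpt]; exact iff_of_true ((H.adj_a' _).2 (L.mem i)) (bpt_facts i).2.2.2.1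
  · rw [Φ_bpt, Φ_bpt, frame_adj L.toFrame, (bpt_facts i).2.2.2.2]
  · rw [Φ_bpt, Φ_cpt, H.adj_symm, L.ζ_trace, hsymm, (cpt_facts d).2.2.1]
  · rw [Φ_zero, Φ_cpt, H.adj_a', hsymm]
    exact iff_of_false (fun h => H.not_both h (L.ζ_mem c)) (fun h => Bool.noConfusion (hc.symm.trans h))
  · rw [Φ_cpt, Φ_bpt, L.ζ_trace, (cpt_facts c).2.2.1]
  · rw [Φ_cpt, Φ_cpt, L.adj_C]

/-- The labelling as a bijection. -/
noncomputable def equiv : Fin 275 ≃ Ω := Equiv.ofBijective L.Φ L.Φ_bij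

/-- The group on the labels. -/
noncomputable def hom : G →* Perm (Fin 275) where
  toFun g := L.equiv.symm.permCongr (g : Perm Ω)
  map_one' := by ext; simp
  map_mul' g h := by ext; simp

theorem hom_spec (g : G) (x : Fin 275) : L.Φ (L.hom g x) = (g : Perm Ω) (L.Φ x) := by
  show L.equiv (L.equiv.symm.permCongr (g : Perm Ω) x) = _
  simp [equiv]

theorem hom_inj : Function.Injective L.hom := fun g h e =>
  Subtype.ext (L.equiv.symm.permCongr.injective e)

theorem range_aut : L.hom.range ≤ autGrp := by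
  rintro _ ⟨g, rfl⟩ x y
  rw [Bool.eq_iff_iff, ← L.Φ_adj, ← L.Φ_adj, L.hom_spec, L.hom_spec, H.adj_map g.2]

theorem stab_eq : L.hom.range ⊓ MulAction.stabilizer (Perm (Fin 275)) (0 : Fin 275) = X0 := by
  have hmap : L.hom.range ⊓ MulAction.stabilizer (Perm (Fin 275)) (0 : Fin 275) =
      (MulAction.stabilizer G a).map L.hom := by
    ext p
    constructor
    · rintro ⟨⟨g, rfl⟩, hp⟩
      refine ⟨g, ?_, rfl⟩
      show (g : Perm Ω) a = a
      have h := L.hom_spec g 0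
      rw [show L.hom g 0 = 0 from hp, L.Φ_zero] at h
      exact h.symm
    · rintro ⟨g, hg, rfl⟩
      refine ⟨⟨g, rfl⟩, L.Φ_bij.1 ?_⟩
      show L.Φ (L.hom g 0) = L.Φ 0
      rw [L.hom_spec, L.Φ_zero]; exact hg
  rw [hmap]
  symm
  refine Subgroup.eq_of_le_of_card_ge (fun p hp => ?_) ?_
  · obtain ⟨x, hx1, hx2⟩ := L.full_lift ⟨p, hp⟩
    refine ⟨(x : G), x.2, Equiv.ext fun u => L.Φ_bij.1 ?_⟩
    rw [L.hom_spec]
    rcases pt_cases u with rfl | ⟨i, rfl⟩ | ⟨c, rfl, -⟩
    · rw [L.Φ_zero, show p 0 = 0 from hp.2, L.Φ_zero]; exact act_a x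
    · rw [L.Φ_bpt, show p (bpt i) = bpt (rho ⟨p, hp⟩ i) from rho_spec ⟨p, hp⟩ i, L.Φ_bpt]; exact hx1 i
    · obtain ⟨c', hc'⟩ := cmap_exists ⟨p, X0_le hp⟩ c
      rw [L.Φ_cpt, show p (cpt c) = cpt c' from hc', L.Φ_cpt]; exact hx2 c c' hc'
  · rw [Subgroup.card_map_of_injective L.hom_inj, Nat.card_congr H.e.toEquiv]

theorem range_trans (x : Fin 275) : ∃ p ∈ L.hom.range, p 0 = x := by
  refine ⟨L.hom ⟨H.t (L.Φ x), H.t_mem _⟩, ⟨_, rfl⟩, L.Φ_bij.1 ?_⟩
  rw [L.hom_spec, L.Φ_zero]; exact H.t_a _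

theorem range_eq : L.hom.range = M := by
  set G' := L.hom.range with hG'
  have hcardG' : Nat.card G' = 898128000 := by
    have horb : MulAction.orbit G' (0 : Fin 275) = Set.univ := Set.eq_univ_of_forall fun x => by
      obtain ⟨p, hp, e⟩ := L.range_trans x; exact ⟨⟨p, hp⟩, e⟩
    have h := H14.card_stab_mul G' (0 : Fin 275) _ horb
    rw [Set.ncard_univ, Nat.card_fin, L.stab_eq, H.cardX] at h
    omega
  obtain ⟨g, hg, g0⟩ := L.range_trans (bpt 0)
  obtain ⟨m, hm, m0⟩ := M_trans H.cardX (bpt 0)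
  have hsA : m⁻¹ * g ∈ A0 := ⟨autGrp.mul_mem (autGrp.inv_mem (M_le_aut hm)) (L.range_aut hg), by
    show m⁻¹ (g 0) = 0
    rw [g0, Perm.inv_eq_iff_eq, m0]⟩
  have hconj : ∀ x : X0, m * (x : Perm (Fin 275)) * m⁻¹ ∈ G' := by
    intro x
    obtain ⟨y, hy⟩ := normalises H.simple (autB.inv_mem (res_aut ⟨_, hsA⟩)) x
    have hy' : (y : Perm (Fin 275)) = (m⁻¹ * g)⁻¹ * x * (m⁻¹ * g) := by
      have e : (Subgroup.inclusion X0_le y) = (⟨_, hsA⟩ : A0)⁻¹ * Subgroup.inclusion X0_le x * ⟨_, hsA⟩ := by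
        refine res_inj ?_
        rw [map_mul, map_mul, map_inv]
        refine (show res (Subgroup.inclusion X0_le y) = rho y from rfl).trans (hy.trans ?_)
        rw [inv_inv]; rfl
      exact congrArg Subtype.val e
    have hyG : (y : Perm (Fin 275)) ∈ G' := (L.stab_eq.ge y.2).1
    have := G'.mul_mem (G'.mul_mem hg hyG) (G'.inv_mem hg)
    rw [hy'] at this
    convert this using 1
    group
  set K := G' ⊓ M with hK
  have hXK : X0 ≤ K := le_inf ((L.stab_eq.ge).trans inf_le_left) inf_le_left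
  have hKstab : K ⊓ MulAction.stabilizer (Perm (Fin 275)) (0 : Fin 275) = X0 :=
    le_antisymm (fun p hp => ⟨hp.1.2, hp.2⟩) (le_inf hXK inf_le_right)
  set O := MulAction.orbit K (0 : Fin 275) with hO
  have hcardK := H14.card_stab_mul K (0 : Fin 275) O rfl
  rw [hKstab, H.cardX] at hcardK
  have hdvd : Nat.card K ∣ 898128000 := card_M ▸ Subgroup.card_dvd_of_le inf_le_right
  rw [← hcardK, show (898128000 : ℕ) = 275 * 3265920 by norm_num] at hdvd
  have hd275 : O.ncard ∣ 275 := Nat.dvd_of_mul_dvd_mul_right (by norm_num) hdvd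
  have h112 : 112 ≤ O.ncard := by
    obtain ⟨i0, hi0⟩ : ∃ i0, m⁻¹ (0 : Fin 275) = bpt i0 := by
      refine (adj_zero_iff _).1 ?_
      have h := M_le_aut (M.inv_mem hm) (bpt 0) 0
      rw [Perm.inv_eq_iff_eq.2 m0.symm] at h
      exact h.trans (bpt_facts 0).2.2.2.1
    have hsub : Set.range (fun j => m (bpt j)) ⊆ O := by
      rintro _ ⟨j, rfl⟩
      obtain ⟨t1, ht1⟩ := transB_el j
      obtain ⟨t0, ht0⟩ := transB_el i0
      have hmem : m * ((t1 * t0⁻¹ : X0) : Perm (Fin 275)) * m⁻¹ ∈ K :=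
        ⟨hconj _, M.mul_mem (M.mul_mem hm (t1 * t0⁻¹).2.1) (M.inv_mem hm)⟩
      refine ⟨⟨_, hmem⟩, ?_⟩
      show m (((t1 * t0⁻¹ : X0) : Perm (Fin 275)) (m⁻¹ 0)) = m (bpt j)
      rw [hi0, rho_spec, map_mul, map_inv, Perm.mul_apply, Perm.inv_eq_iff_eq.2 ht0.symm, ht1]
    have := Set.ncard_le_ncard hsub
    rwa [Set.ncard_range_of_injective (f := fun j => m (bpt j)) (fun i j h => bpt_inj (m.injective h)),
      Nat.card_fin] at this
  have hO275 : O.ncard = 275 := by
    have hle : O.ncard ≤ 275 := by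
      have := Set.ncard_le_ncard (Set.subset_univ O)
      simpa using this
    obtain ⟨q, hq⟩ := hd275
    rcases Nat.lt_or_ge q 2 with hq2 | hq2
    · interval_cases q <;> omega
    · rcases Nat.lt_or_ge q 3 with hq3 | hq3
      · interval_cases q; omega
      · have : 112 * 3 ≤ O.ncard * q := Nat.mul_le_mul h112 hq3
        omega
  rw [hO275] at hcardK
  have hKM : K = M := Subgroup.eq_of_le_of_card_ge inf_le_right (by rw [card_M]; omega)
  have hMG : M ≤ G' := hKM ▸ inf_le_left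
  exact (Subgroup.eq_of_le_of_card_ge hMG (by rw [hcardG', card_M])).symm

include L in
theorem iso : Spor.IsoMcL G := by
  obtain ⟨e⟩ := M_iso
  exact ⟨((MonoidHom.ofInjective L.hom_inj).trans (MulEquiv.subgroupCongr L.range_eq)).trans e.symm⟩

end Labelling

end Hyp

end Cfsg.Agent.H11.McL
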