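import Cfsg.Agent.H11.McL.Model
import Cfsg.Agent.H11.McL.Checks3

/-!
Every transitive action of degree 112 of the stabiliser of a point is the action on the neighbours:
a subgroup of index 112 fixes one of them.
-/

set_option autoImplicit false

open Equiv Cfsg.Agent.H16 Cfsg.Agent.H36

namespace Cfsg.Agent.H11.McL

open Data

theorem seq_exists {k : ℕ} (hk : k < 6) : ∃ g : X0,
    (∀ x : Fin 275, (((g : Perm (Fin 275)) x : Fin 275) : ℕ) = apE (getN seqL k) x) ∧ rho g 0 = 0 := by
  have h := pc_ok k hk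
  simp only [pcOk, forceNat_eq, Bool.and_eq_true] at h
  obtain ⟨g, hg, hb⟩ := elX h.1.1.1.1
  exact ⟨g, hg, Fin.ext ((hb 0).trans (Nat.eq_of_beq_eq_true h.1.1.1.2))⟩

/-- The generators of the 3-subgroup. -/
noncomputable def seqG (k : ℕ) : X0 := if h : k < 6 then (seq_exists h).choose else 1

theorem seqG_apply {k : ℕ} (hk : k < 6) (x : Fin 275) :
    (((seqG k : Perm (Fin 275)) x : Fin 275) : ℕ) = apE (getN seqL k) x := by
  rw [seqG, dif_pos hk]; exact (seq_exists hk).choose_spec.1 x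

theorem seqG_zero (k : ℕ) : rho (seqG k) 0 = 0 := by
  by_cases hk : k < 6
  · rw [seqG, dif_pos hk]; exact (seq_exists hk).choose_spec.2
  · rw [seqG, dif_neg hk, map_one]; rfl

/-- The product of a word. -/
noncomputable def wordG (w : List ℕ) : X0 := (w.map seqG).prod

theorem wordG_apply : ∀ (w : List ℕ), (∀ a ∈ w, a < 6) → ∀ x : Fin 275,
    (((wordG w : Perm (Fin 275)) x : Fin 275) : ℕ) = evalS w x
  | [], _, x => by simp [wordG, evalS]
  | a :: w, h, x => by
    have ih := wordG_apply w (fun b hb => h b (List.mem_cons_of_mem _ hb)) x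
    show (((seqG a * wordG w : X0) : Perm (Fin 275)) x : ℕ) = forceNat (evalS w x) fun y => apE (getN seqL a) y
    rw [forceNat_eq, Subgroup.coe_mul, Perm.mul_apply, seqG_apply (h a List.mem_cons_self), ih]

/-- The terms of the series. -/
noncomputable def Pk (k : ℕ) : Subgroup X0 := Subgroup.closure (seqG '' Set.Iio k)

theorem wordG_mem {k : ℕ} {w : List ℕ} (hw : ∀ a ∈ w, a < k) : wordG w ∈ Pk k :=
  list_prod_mem fun g hg => by
    obtain ⟨a, ha, rfl⟩ := List.mem_map.1 hg
    exact Subgroup.subset_closure ⟨a, hw a ha, rfl⟩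

theorem all_lt {l : List ℕ} {k : ℕ} (h : (l.all fun a => Nat.blt a k) = true) : ∀ a ∈ l, a < k :=
  fun a ha => Nat.le_of_ble_eq_true (List.all_eq_true.1 h a ha)

theorem pc_step {k : ℕ} (hk : k < 6) : seqG k ^ 3 ∈ Pk k ∧
    ∀ j < k, seqG k * seqG j * (seqG k)⁻¹ ∈ Pk k := by
  have h := pc_ok k hk
  simp only [pcOk, forceNat_eq, Bool.and_eq_true] at h
  obtain ⟨⟨⟨-, hw⟩, h3⟩, hc⟩ := h
  constructor
  · have e : seqG k ^ 3 = wordG (getW cubeW k) := by
      refine Subtype.ext (Equiv.ext fun x => Fin.ext ?_)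
      rw [wordG_apply _ (fun a ha => (all_lt hw a ha).trans hk),
        show seqG k ^ 3 = seqG k * seqG k * seqG k by rw [pow_succ, pow_succ, pow_one]]
      simp only [Subgroup.coe_mul, Perm.mul_apply, seqG_apply hk]
      exact Nat.eq_of_beq_eq_true (allFrom_spec h3 x (Nat.zero_le _) (by simp))
    rw [e]; exact wordG_mem (all_lt hw)
  · intro j hj
    have hj' := allFrom_spec hc j (Nat.zero_le _) (by simpa using hj)
    simp only [Bool.and_eq_true] at hj'
    have e : seqG k * seqG j = wordG (getW (conjW.getD k []) j) * seqG k := by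
      refine Subtype.ext (Equiv.ext fun x => Fin.ext ?_)
      simp only [Subgroup.coe_mul, Perm.mul_apply,
        wordG_apply _ (fun a ha => (all_lt hj'.1 a ha).trans hk), seqG_apply hk,
        seqG_apply (hj.trans hk)]
      exact Nat.eq_of_beq_eq_true (allFrom_spec hj'.2 x (Nat.zero_le _) (by simp))
    rw [e, mul_inv_cancel_right]; exact wordG_mem (all_lt hj'.1)

theorem isPGroup_step {p : ℕ} {G : Type*} [Group G] (H : Subgroup G) (g : G) (hH : IsPGroup p H)
    (hg : g ^ p ∈ H) (hn : g ∈ Subgroup.normalizer (H : Set G)) :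
    IsPGroup p (H ⊔ Subgroup.zpowers g : Subgroup G) := by
  intro x
  have hnle : Subgroup.zpowers g ≤ Subgroup.normalizer (H : Set G) := by
    rw [Subgroup.zpowers_le]; exact hn
  have hle : H ⊔ Subgroup.zpowers g ≤ Subgroup.normalizer (H : Set G) :=
    sup_le Subgroup.le_normalizer hnle
  let N := Subgroup.normalizer (H : Set G)
  let π := QuotientGroup.mk' (H.subgroupOf N)
  let xN : N := ⟨x, hle x.2⟩
  obtain ⟨h, hh, z, ⟨n, rfl⟩, e⟩ : ∃ h ∈ H, ∃ z ∈ Subgroup.zpowers g, h * z = (x : G) := by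
    have hx : (x : G) ∈ ((H ⊔ Subgroup.zpowers g : Subgroup G) : Set G) := x.2
    rw [Subgroup.coe_mul_of_right_le_normalizer_left H _ hnle] at hx
    exact hx
  have hπ : π xN = π ⟨g, hn⟩ ^ n := by
    have : xN = ⟨h, Subgroup.le_normalizer hh⟩ * (⟨g, hn⟩ : N) ^ n := Subtype.ext (by simpa using e.symm)
    rw [this, map_mul, map_zpow,
      show π ⟨h, Subgroup.le_normalizer hh⟩ = 1 from (QuotientGroup.eq_one_iff _).2 (by exact hh), one_mul]
  have h3 : (x : G) ^ p ∈ H := by
    have : π (xN ^ p) = 1 := by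
      rw [map_pow, hπ, ← zpow_natCast, ← zpow_mul, mul_comm, zpow_mul, zpow_natCast, ← map_pow,
        show π (⟨g, hn⟩ ^ p) = 1 from (QuotientGroup.eq_one_iff _).2 (by exact hg), one_zpow]
    exact (QuotientGroup.eq_one_iff (xN ^ p)).1 this
  obtain ⟨m, hm⟩ := hH ⟨_, h3⟩
  refine ⟨m + 1, Subtype.ext ?_⟩
  have hm' : ((x : G) ^ p) ^ p ^ m = 1 := by simpa [Subtype.ext_iff] using hm
  simp [pow_succ', pow_mul, hm']

theorem Pk_pGroup : ∀ k, k ≤ 6 → IsPGroup 3 (Pk k) := by
  intro k
  induction k with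
  | zero =>
    intro _
    rw [Pk, show seqG '' Set.Iio 0 = ∅ by simp, Subgroup.closure_empty]
    exact IsPGroup.of_bot
  | succ k ih =>
    intro hk
    obtain ⟨h3, hc⟩ := pc_step (k := k) (by omega)
    have e : Pk (k + 1) = Pk k ⊔ Subgroup.zpowers (seqG k) := by
      rw [Pk, Pk, Subgroup.zpowers_eq_closure, ← Subgroup.closure_union]
      congr 1
      rw [show Set.Iio (k + 1) = Set.Iio k ∪ {k} by ext; simp, Set.image_union, Set.image_singleton]
    rw [e]
    refine isPGroup_step _ _ (ih (by omega)) h3 ?_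
    have hle : (Pk k).map (MulAut.conj (seqG k)).toMonoidHom ≤ Pk k := by
      rw [Pk, MonoidHom.map_closure, Subgroup.closure_le]
      rintro _ ⟨_, ⟨j, hj, rfl⟩, rfl⟩
      exact hc j hj
    have heq := Subgroup.eq_of_le_of_card_ge hle (le_of_eq (Subgroup.card_map_of_injective
      (MulEquiv.injective _)).symm)
    rw [Subgroup.mem_normalizer_iff]
    intro x
    refine ⟨fun hx => hle ⟨x, hx, rfl⟩, fun hx => ?_⟩
    have hx' : seqG k * x * (seqG k)⁻¹ ∈ (Pk k).map (MulAut.conj (seqG k)).toMonoidHom := heq.ge hx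
    obtain ⟨y, hy, ey⟩ := hx'
    simp only [MulEquiv.coe_toMonoidHom, MulAut.conj_apply, mul_left_inj, mul_right_inj] at ey
    exact ey ▸ hy

theorem Pk_zero {g : X0} (hg : g ∈ Pk 6) : rho g 0 = 0 := by
  have : Pk 6 ≤ (MulAction.stabilizer (Perm (Fin 112)) (0 : Fin 112)).comap rho := by
    rw [Pk, Subgroup.closure_le]
    rintro _ ⟨k, -, rfl⟩
    exact seqG_zero k
  exact this hg

theorem block_word {p : ℕ × List (ℕ × List ℕ)} (hp : p ∈ blocks) {q : ℕ × List ℕ} (hq : q ∈ p.2) :
    ∃ g ∈ Pk 6, ∃ r y : Fin 112, (r : ℕ) = p.1 ∧ (y : ℕ) = q.1 ∧ rho g r = y := by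
  have h := blocks_ok
  simp only [blocksOk, Bool.and_eq_true, List.all_eq_true] at h
  obtain ⟨⟨⟨hr, hy⟩, hw⟩, he⟩ := h.1 p hp q hq
  have hw' : ∀ a ∈ q.2, a < 6 := fun a ha => Nat.le_of_ble_eq_true (hw a ha)
  refine ⟨wordG q.2, wordG_mem hw', ⟨p.1, Nat.le_of_ble_eq_true hr⟩, ⟨q.1, Nat.le_of_ble_eq_true hy⟩,
    rfl, rfl, Fin.ext ?_⟩
  have h1 := wordG_apply q.2 hw' (bpt ⟨p.1, Nat.le_of_ble_eq_true hr⟩)
  rw [rho_spec] at h1
  exact ((bpt_facts _).1.symm.trans (congrArg idx h1)).trans (Nat.eq_of_beq_eq_true he)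

/-- The block containing a point. -/
noncomputable def blockIn (sel : ℕ → Bool) (i : ℕ) : Bool :=
  blocks.any fun p => sel p.1 && p.2.any fun q => Nat.beq q.1 i

/-- The number of points in a union of blocks. -/
noncomputable def blockCnt (sel : ℕ → Bool) : ℕ := countFrom (blockIn sel) 112 0

theorem block_union_cases : ∀ b1 b2 b3 : Bool,
    (29160 % blockCnt (fun r => Nat.beq r 0 || (Nat.beq r 1 && b1) || (Nat.beq r 2 && b2) || (Nat.beq r 58 && b3)) == 0) = true →
      (allFrom (fun i => blockIn (fun r => Nat.beq r 0 || (Nat.beq r 1 && b1) || (Nat.beq r 2 && b2) || (Nat.beq r 58 && b3)) i == (Nat.beq i 0)) 112 0 ||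
        allFrom (fun i => blockIn (fun r => Nat.beq r 0 || (Nat.beq r 1 && b1) || (Nat.beq r 2 && b2) || (Nat.beq r 58 && b3)) i == (l0.any fun x => Nat.beq x i)) 112 0) = true := by
  decide +kernel

theorem blocks_heads : ∀ p ∈ blocks, p.1 < 112 ∧ (p.1 = 0 ∨ p.1 = 1 ∨ p.1 = 2 ∨ p.1 = 58) := by decide +kernel

/-- A set containing the first point, closed under the 3-subgroup and of size dividing `29160`. -/
theorem union_cases (O : Set (Fin 112)) (h0 : (0 : Fin 112) ∈ O)
    (hcl : ∀ g ∈ Pk 6, ∀ x, rho g x ∈ O ↔ x ∈ O) (hdvd : O.ncard ∣ 29160) :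
    (∀ x, x ∈ O ↔ x = 0) ∨ ∀ x : Fin 112, x ∈ O ↔ (x : ℕ) ∈ l0 := by
  classical
  set sel : ℕ → Bool := fun r => Nat.beq r 0 || (Nat.beq r 1 && decide ((1 : Fin 112) ∈ O)) ||
    (Nat.beq r 2 && decide ((2 : Fin 112) ∈ O)) || (Nat.beq r 58 && decide ((58 : Fin 112) ∈ O)) with hsel
  have hselO : ∀ p ∈ blocks, ∀ r : Fin 112, (r : ℕ) = p.1 → (sel p.1 = true ↔ r ∈ O) := by
    intro p hp r hr
    rcases (blocks_heads p hp).2 with e | e | e | e <;>
    · rw [e] at hr ⊢
      first
        | (obtain rfl : r = 0 := Fin.ext hr; simp [sel, h0]; done)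
        | (obtain rfl : r = 1 := Fin.ext hr; simp [sel]; done)
        | (obtain rfl : r = 2 := Fin.ext hr; simp [sel]; done)
        | (obtain rfl : r = 58 := Fin.ext hr; simp [sel]; done)
  have hblock : ∀ p ∈ blocks, ∀ q ∈ p.2, ∀ r y : Fin 112, (r : ℕ) = p.1 → (y : ℕ) = q.1 → (r ∈ O ↔ y ∈ O) := by
    intro p hp q hq r y hr hy
    obtain ⟨g, hg, r', y', hr', hy', e⟩ := block_word hp hq
    obtain rfl : r = r' := Fin.ext (hr.trans hr'.symm)
    obtain rfl : y = y' := Fin.ext (hy.trans hy'.symm)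
    rw [← e, hcl g hg]
  have hmem : ∀ y : Fin 112, blockIn sel y = true ↔ y ∈ O := by
    intro y
    simp only [blockIn, List.any_eq_true, Bool.and_eq_true]
    constructor
    · rintro ⟨p, hp, hs, q, hq, e⟩
      exact (hblock p hp q hq ⟨p.1, (blocks_heads p hp).1⟩ y rfl (Nat.eq_of_beq_eq_true e).symm).1
        ((hselO p hp ⟨p.1, (blocks_heads p hp).1⟩ rfl).1 hs)
    · intro hy
      have h := blocks_ok
      simp only [blocksOk, Bool.and_eq_true] at h
      have h2 := allFrom_spec h.2 y (Nat.zero_le _) (by simp)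
      simp only [List.any_eq_true] at h2
      obtain ⟨p, hp, q, hq, e⟩ := h2
      exact ⟨p, hp, (hselO p hp ⟨p.1, (blocks_heads p hp).1⟩ rfl).2
        ((hblock p hp q hq ⟨p.1, (blocks_heads p hp).1⟩ y rfl (Nat.eq_of_beq_eq_true e).symm).2 hy), q, hq, e⟩
  have hcnt : blockCnt sel = O.ncard := by
    rw [blockCnt, countFrom_spec, Set.ncard_eq_toFinset_card' O]
    refine (Finset.card_bij (fun (y : Fin 112) _ => (y : ℕ)) (fun y hy => ?_)
      (fun a _ c _ e => Fin.val_injective e) ?_).symm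
    · simpa [hmem] using hy
    · intro n hn
      obtain ⟨h1, h2⟩ := Finset.mem_filter.1 hn
      exact ⟨⟨n, by simpa using h1⟩, by simpa [← hmem] using h2, rfl⟩
  have hc := block_union_cases (decide ((1 : Fin 112) ∈ O)) (decide ((2 : Fin 112) ∈ O))
    (decide ((58 : Fin 112) ∈ O)) (by
      show (29160 % blockCnt sel == 0) = true
      rw [hcnt, beq_iff_eq]; exact Nat.mod_eq_zero_of_dvd hdvd)
  rw [Bool.or_eq_true] at hc
  rcases hc with hc | hc
  · left
    intro x
    have := allFrom_spec hc x (Nat.zero_le _) (by simp)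
    rw [beq_iff_eq] at this
    rw [← hmem, show blockIn sel x = _ from this]
    exact ⟨fun e => Fin.ext (Nat.eq_of_beq_eq_true e), fun e => by subst e; rfl⟩
  · right
    intro y
    have := allFrom_spec hc y (Nat.zero_le _) (by simp)
    rw [beq_iff_eq] at this
    rw [← hmem, show blockIn sel y = _ from this, List.any_eq_true]
    exact ⟨fun ⟨x, hx, e⟩ => Nat.eq_of_beq_eq_true e ▸ hx, fun hx => ⟨_, hx, by simp⟩⟩

section

variable (hcard : Nat.card X0 = 3265920) (Y : Subgroup X0) (hY : Nat.card Y = 29160)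

include hcard hY

/-- The orbit of the first point under `Y` is not the line `l0`. -/
theorem no_line (h : ∀ g ∈ Y, ∀ x : Fin 112, (x : ℕ) ∈ l0 → ((rho g x : Fin 112) : ℕ) ∈ l0) : False := by
  have hidx : Y.index = 112 := by
    have := Y.card_mul_index
    rw [hcard, hY] at this; omega
  have hk : ∀ n : Fin 113, ∃ g : X0, ∀ i : Fin 112, (rho g i : ℕ) = apB (lorbTab.get 10 n) i := fun n => by
    have h := lorb_ok n n.2
    simp only [lorbOk, forceNat_eq, Bool.and_eq_true] at h
    obtain ⟨g, -, hg⟩ := elX h.1.1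
    exact ⟨g, hg⟩
  choose gs hgs using hk
  have hmask : ∀ n : Fin 113, ∀ z : Fin 112, tb (lorbMask.get n) z = true ↔
      ∃ x : Fin 112, (x : ℕ) ∈ l0 ∧ rho (gs n) x = z := fun n z => by
    have h := lorb_ok n n.2
    simp only [lorbOk, forceNat_eq, Bool.and_eq_true] at h
    rw [← brec_eq (allFrom_spec h.1.2 z (Nat.zero_le _) (by simp)), List.any_eq_true]
    constructor
    · rintro ⟨x, hx, e⟩
      have hx112 : x < 112 := by
        have : ∀ x ∈ l0, x < 112 := by decide +kernel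
        exact this x hx
      exact ⟨⟨x, hx112⟩, hx, Fin.ext ((hgs n _).trans (Nat.eq_of_beq_eq_true e))⟩
    · rintro ⟨x, hx, rfl⟩
      exact ⟨x, hx, by rw [← hgs n x]; simp⟩
  have hlt : ∀ n m : Fin 113, (n : ℕ) < m → lorbMask.get n < lorbMask.get m := by
    have hs : ∀ m, m + 1 < 113 → lorbMask.get m < lorbMask.get (m + 1) := fun m hm => by
      have h := lorb_ok (m + 1) hm
      simp only [lorbOk, forceNat_eq, Bool.and_eq_true, Bool.or_eq_true, Nat.blt_eq] at h
      rcases h.2 with e | e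
      · exact absurd (Nat.eq_of_beq_eq_true e) (by omega)
      · exact e
    intro n m hnm
    obtain ⟨m, hm⟩ := m
    simp only at hnm ⊢
    induction m with
    | zero => omega
    | succ m ih =>
      rcases Nat.lt_succ_iff_lt_or_eq.1 hnm with e | e
      · exact (ih (by omega) e).trans (hs m hm)
      · rw [e]; exact hs m hm
  have hinj : Function.Injective fun n : Fin 113 => (QuotientGroup.mk (gs n) : X0 ⧸ Y) := by
    intro n m e
    have hy : (gs n)⁻¹ * gs m ∈ Y := QuotientGroup.eq.1 e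
    have key : ∀ a b : Fin 113, (gs a)⁻¹ * gs b ∈ Y → ∀ z : Fin 112,
        tb (lorbMask.get b) z = true → tb (lorbMask.get a) z = true := fun a b hab z hz => by
      obtain ⟨x, hx, rfl⟩ := (hmask b z).1 hz
      refine (hmask a _).2 ⟨rho ((gs a)⁻¹ * gs b) x, h _ hab x hx, ?_⟩
      rw [← Perm.mul_apply, ← map_mul, mul_inv_cancel_left]
    have hy' : (gs m)⁻¹ * gs n ∈ Y := by simpa using Y.inv_mem hy
    have hsmall : ∀ a : Fin 113, lorbMask.get a < 2 ^ 112 := by decide +kernel
    have heq : lorbMask.get n = lorbMask.get m := Nat.eq_of_testBit_eq fun i => by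
      by_cases hi : i < 112
      · rw [← tb_eq, ← tb_eq, Bool.eq_iff_iff]
        exact ⟨key m n hy' ⟨i, hi⟩, key n m hy ⟨i, hi⟩⟩
      · rw [Nat.testBit_lt_two_pow (lt_of_lt_of_le (hsmall n) (Nat.pow_le_pow_right (by norm_num) (not_lt.1 hi))),
          Nat.testBit_lt_two_pow (lt_of_lt_of_le (hsmall m) (Nat.pow_le_pow_right (by norm_num) (not_lt.1 hi)))]
    rcases lt_trichotomy (n : ℕ) m with hl | hl | hl
    · exact absurd heq (hlt n m hl).ne
    · exact Fin.ext hl
    · exact absurd heq (hlt m n hl).ne'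
  haveI : Finite (X0 ⧸ Y) := inferInstance
  have := Nat.card_le_card_of_injective _ hinj
  rw [Nat.card_fin, ← Subgroup.index, hidx] at this
  omega

/-- A subgroup of index 112 containing the 3-subgroup fixes the first point. -/
theorem fix_of_Pk (hP : Pk 6 ≤ Y) : ∀ g ∈ Y, rho g 0 = 0 := by
  let _ : MulAction X0 (Fin 112) := MulAction.compHom _ rho
  set O : Set (Fin 112) := MulAction.orbit Y (0 : Fin 112) with hO
  have hcl : ∀ g ∈ Y, ∀ x, rho g x ∈ O ↔ x ∈ O := fun g hg x => by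
    constructor
    · intro h
      have := MulAction.mem_orbit_of_mem_orbit (⟨g⁻¹, Y.inv_mem hg⟩ : Y) h
      have e : (⟨g⁻¹, Y.inv_mem hg⟩ : Y) • (rho g x) = x := by
        show rho g⁻¹ (rho g x) = x
        rw [map_inv]; exact (rho g).symm_apply_apply x
      rwa [e] at this
    · exact fun h => MulAction.mem_orbit_of_mem_orbit (⟨g, hg⟩ : Y) h
  have hdvd : O.ncard ∣ 29160 := by
    rw [← hY, hO, ← Nat.card_coe_set_eq, Nat.card_congr (MulAction.orbitEquivQuotientStabilizer Y (0 : Fin 112))]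
    exact Subgroup.card_quotient_dvd_card _
  intro g hg
  have hgO : rho g 0 ∈ O := ⟨⟨g, hg⟩, rfl⟩
  rcases union_cases O (MulAction.mem_orbit_self _) (fun g hg => hcl g (hP hg)) hdvd with hc | hc
  · exact (hc _).1 hgO
  · exact (no_line hcard Y hY fun g hg x hx => (hc _).1 ((hcl g hg x).2 ((hc x).2 hx))).elim

omit hY in
theorem stab_card (i : Fin 112) :
    Nat.card ((MulAction.stabilizer (Perm (Fin 112)) i).comap rho) = 29160 := by
  letI : MulAction X0 (Fin 112) := MulAction.compHom _ rho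
  have horb : MulAction.orbit X0 i = Set.univ := by
    refine Set.eq_univ_of_forall fun j => ?_
    obtain ⟨g, hg⟩ := transB_el i
    obtain ⟨g', hg'⟩ := transB_el j
    exact ⟨g' * g⁻¹, by
      show rho (g' * g⁻¹) i = j
      rw [map_mul, map_inv, Perm.mul_apply, Perm.inv_eq_iff_eq.2 hg.symm, hg']⟩
  have h := H14.card_stab_mul' (G := X0) i _ horb
  rw [Set.ncard_univ, Nat.card_fin, hcard] at h
  show Nat.card (MulAction.stabilizer X0 i) = 29160
  omega

/-- A subgroup of index 112 fixes one of the neighbours. -/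
theorem exists_fixed : ∃ i, ∀ g : X0, g ∈ Y ↔ rho g i = i := by
  haveI : Fact (Nat.Prime 3) := ⟨by norm_num⟩
  haveI : Finite (Sylow 3 X0) := inferInstance
  obtain ⟨S, hS⟩ := (Pk_pGroup 6 le_rfl).exists_le_sylow
  obtain ⟨T⟩ : Nonempty (Sylow 3 Y) := inferInstance
  have hT : IsPGroup 3 ((T : Subgroup Y).map Y.subtype) := T.isPGroup'.map _
  have hTcard : Nat.card ((T : Subgroup Y).map Y.subtype) = 729 := by
    rw [Subgroup.card_map_of_injective Y.subtype_injective, T.card_eq_multiplicity, hY,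
      show (29160 : ℕ) = 3 ^ 6 * 40 by norm_num, Nat.factorization_mul (by norm_num) (by norm_num),
      Finsupp.add_apply, Nat.Prime.factorization_pow (by norm_num), Finsupp.single_eq_same,
      Nat.factorization_eq_zero_of_not_dvd (by norm_num : ¬ 3 ∣ 40)]
    norm_num
  obtain ⟨S', hS'⟩ := hT.exists_le_sylow
  have hScard : ∀ Q : Sylow 3 X0, Nat.card Q = 729 := fun Q => by
    rw [Q.card_eq_multiplicity, hcard,
      show (3265920 : ℕ) = 3 ^ 6 * 4480 by norm_num, Nat.factorization_mul (by norm_num) (by norm_num),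
      Finsupp.add_apply, Nat.Prime.factorization_pow (by norm_num), Finsupp.single_eq_same,
      Nat.factorization_eq_zero_of_not_dvd (by norm_num : ¬ 3 ∣ 4480)]
    norm_num
  have hSY : (S' : Subgroup X0) ≤ Y := by
    have := Subgroup.eq_of_le_of_card_ge hS' (by rw [hTcard]; exact (hScard S').le)
    rw [← this]
    exact Subgroup.map_subtype_le _
  obtain ⟨c, hc⟩ := MulAction.exists_smul_eq X0 S' S
  set Y' : Subgroup X0 := Y.map (MulAut.conj c).toMonoidHom with hY'
  have hcardY' : Nat.card Y' = 29160 := by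
    rw [hY', Subgroup.card_map_of_injective (MulEquiv.injective _)]; exact hY
  have hPY : Pk 6 ≤ Y' := hS.trans (by
    rw [← hc, Sylow.coe_subgroup_smul]
    exact Subgroup.map_mono hSY)
  have hfix := fix_of_Pk hcard Y' hcardY' hPY
  have heq : Y' = (MulAction.stabilizer (Perm (Fin 112)) (0 : Fin 112)).comap rho :=
    Subgroup.eq_of_le_of_card_ge hfix (by rw [hcardY', stab_card hcard])
  refine ⟨rho c⁻¹ 0, fun g => ?_⟩
  have : g ∈ Y ↔ c * g * c⁻¹ ∈ Y' := by
    rw [hY']
    exact (Subgroup.mem_map_iff_mem (f := (MulAut.conj c).toMonoidHom) (MulEquiv.injective _)).symm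
  rw [this, heq]
  show rho (c * g * c⁻¹) 0 = 0 ↔ _
  rw [map_mul, map_mul, Perm.mul_apply, Perm.mul_apply, map_inv]
  exact ⟨fun h => (Perm.eq_inv_iff_eq).2 h, fun h => (Perm.eq_inv_iff_eq).1 h⟩

end

end Cfsg.Agent.H11.McL
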